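/-
The order of a group of Lie type compared with the order of its Sylow subgroup in the defining
characteristic.
-/
import Cfsg.Agent.S0243
import Cfsg.Agent.S0280
import Cfsg.Agent.S0292
import Cfsg.Agent.S0293
import Cfsg.Agent.S0294
import Cfsg.Agent.S1059
import Cfsg.Agent.S1062
import Cfsg.Agent.S1063
import Cfsg.Agent.S1064
import Cfsg.Agent.S1065
import Cfsg.Agent.S1066
import Cfsg.Agent.S1067
import Cfsg.Agent.S1069
import Cfsg.Agent.S1163
import Cfsg.Agent.H2.Card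
import Cfsg.Agent.H2.Center
import Cfsg.Prelude.Def_LieTypeChar

set_option autoImplicit false

namespace Cfsg.Agent.H71.LieOrderBound

variable {p q : ℕ}

/-- Both inequalities, for a group order `C`. -/
def Bounds (p C : ℕ) : Prop :=
  C < p ^ (3 * C.factorization p) ∧ C ^ 3 < p ^ (8 * C.factorization p)

theorem not_dvd_pow_sub_one (hp : p.Prime) (hq : p ∣ q) (hq1 : 1 ≤ q) {i : ℕ} (hi : 1 ≤ i) :
    ¬ p ∣ q ^ i - 1 := by
  intro h
  have h1 : p ∣ q ^ i := hq.trans (dvd_pow_self q (by omega))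
  have := Nat.dvd_sub h1 h
  rw [Nat.sub_sub_self (Nat.one_le_pow _ _ hq1)] at this
  exact hp.not_dvd_one this

theorem not_dvd_pow_add_one (hp : p.Prime) (hq : p ∣ q) {i : ℕ} (hi : 1 ≤ i) :
    ¬ p ∣ q ^ i + 1 := by
  intro h
  exact hp.not_dvd_one ((Nat.dvd_add_right (hq.trans (dvd_pow_self q (by omega)))).mp h)

theorem not_dvd_gcd_sub (hp : p.Prime) (hq : p ∣ q) (hq1 : 1 ≤ q) (a : ℕ) {i : ℕ} (hi : 1 ≤ i) :
    ¬ p ∣ Nat.gcd a (q ^ i - 1) := fun h =>
  not_dvd_pow_sub_one hp hq hq1 hi (h.trans (Nat.gcd_dvd_right _ _))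

theorem not_dvd_gcd_add (hp : p.Prime) (hq : p ∣ q) (a : ℕ) {i : ℕ} (hi : 1 ≤ i) :
    ¬ p ∣ Nat.gcd a (q ^ i + 1) := fun h =>
  not_dvd_pow_add_one hp hq hi (h.trans (Nat.gcd_dvd_right _ _))

/-- The Sylow order is `q ^ N`. -/
theorem factorization_eq (hp : p.Prime) {f N g M C : ℕ} (hq : q = p ^ f)
    (hcard : g * C = q ^ N * M) (hC : C ≠ 0) (hg : ¬ p ∣ g) (hM : ¬ p ∣ M) :
    C.factorization p = f * N := by
  have hg0 : g ≠ 0 := fun h => hg (h ▸ dvd_zero p)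
  have hM0 : M ≠ 0 := fun h => hM (h ▸ dvd_zero p)
  have h := congrArg (fun n : ℕ => n.factorization p) hcard
  simp only [Nat.factorization_mul hg0 hC, hq, ← pow_mul,
    Nat.factorization_mul (pow_ne_zero _ hp.ne_zero) hM0, Finsupp.add_apply,
    Nat.factorization_eq_zero_of_not_dvd hg, Nat.factorization_eq_zero_of_not_dvd hM,
    hp.factorization_pow, Finsupp.single_eq_same] at h
  omega

/-- An order `q ^ N * M` with `M < q ^ e`. -/
theorem bounds_of (hp : p.Prime) {f N e g M C : ℕ} (hq : q = p ^ f)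
    (hcard : g * C = q ^ N * M) (hC : C ≠ 0) (hg : ¬ p ∣ g) (hM : ¬ p ∣ M) (hMe : M < q ^ e)
    (h1 : e ≤ 2 * N) (h2 : 3 * e ≤ 5 * N) : Bounds p C := by
  have hfac := factorization_eq hp hq hcard hC hg hM
  have hg1 : 1 ≤ g := Nat.one_le_iff_ne_zero.mpr fun h => hg (h ▸ dvd_zero p)
  have hq1 : 1 ≤ q := hq ▸ Nat.one_le_pow _ _ hp.pos
  have hlt : C < q ^ (N + e) := by
    calc C ≤ g * C := Nat.le_mul_of_pos_left _ hg1
      _ = q ^ N * M := hcard
      _ < q ^ N * q ^ e := Nat.mul_lt_mul_of_pos_left hMe (Nat.pow_pos hq1)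
      _ = q ^ (N + e) := (pow_add q N e).symm
  refine ⟨lt_of_lt_of_le hlt ?_, ?_⟩
  · rw [hfac, hq, ← pow_mul]
    refine Nat.pow_le_pow_right hp.pos ?_
    calc f * (N + e) ≤ f * (3 * N) := Nat.mul_le_mul_left f (by omega)
      _ = 3 * (f * N) := by ring
  · refine lt_of_lt_of_le (Nat.pow_lt_pow_left hlt (by norm_num)) ?_
    rw [hfac, hq, ← pow_mul, ← pow_mul]
    refine Nat.pow_le_pow_right hp.pos ?_
    calc f * ((N + e) * 3) = f * (3 * N + 3 * e) := by ring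
      _ ≤ f * (8 * N) := Nat.mul_le_mul_left f (by omega)
      _ = 8 * (f * N) := by ring

theorem sub_one_le (q i : ℕ) : q ^ i - 1 ≤ q ^ i := Nat.sub_le _ _

theorem sub_one_lt (hq : 1 ≤ q) (i : ℕ) : q ^ i - 1 < q ^ i :=
  Nat.sub_lt (Nat.pow_pos hq) one_pos

theorem add_one_le (hq : 2 ≤ q) (i : ℕ) : q ^ i + 1 ≤ q ^ (i + 1) := by
  have := Nat.one_le_pow i q (by omega)
  have h := Nat.mul_le_mul_left (q ^ i) hq
  rw [pow_succ]
  omega

/-- Multiply two bounds. -/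
theorem mul_lt_pow {a b i j : ℕ} (hq : 1 ≤ q) (ha : a < q ^ i) (hb : b ≤ q ^ j) :
    a * b < q ^ (i + j) := by
  rw [pow_add]
  exact Nat.mul_lt_mul_of_lt_of_le ha hb (Nat.pow_pos hq)

/-- The order of a group of type `A` of rank at least two. -/
theorem prod_sub_lt (hq : 2 ≤ q) : ∀ n, (∏ i ∈ Finset.range (n + 1), (q ^ (i + 2) - 1)) <
    q ^ ((n + 1) * (n + 2) / 2 + (n + 1)) := by
  intro n
  induction n with
  | zero => simpa using sub_one_lt (by omega) 2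
  | succ n ih =>
    rw [Finset.prod_range_succ]
    have e : (n + 1 + 1) * (n + 1 + 2) / 2 + (n + 1 + 1) = ((n + 1) * (n + 2) / 2 + (n + 1)) + (n + 1 + 2) := by
      rw [show (n + 1 + 1) * (n + 1 + 2) = (n + 1) * (n + 2) + (n + 2) * 2 by ring,
        Nat.add_mul_div_right _ _ (by norm_num : 0 < 2)]
      ring
    rw [e]
    exact mul_lt_pow (by omega) ih (sub_one_le _ _)

/-- The product of the `q ^ (2 i) - 1`. -/
theorem prod_even_lt (hq : 2 ≤ q) : ∀ n, (∏ i ∈ Finset.range (n + 1), (q ^ (2 * (i + 1)) - 1)) <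
    q ^ ((n + 1) * (n + 2)) := by
  intro n
  induction n with
  | zero => simpa using sub_one_lt (by omega) 2
  | succ n ih =>
    rw [Finset.prod_range_succ,
      show (n + 1 + 1) * (n + 1 + 2) = (n + 1) * (n + 2) + 2 * (n + 1 + 1) by ring]
    exact mul_lt_pow (by omega) ih (sub_one_le _ _)

theorem prod_even_not_dvd (hp : p.Prime) (hq : p ∣ q) (hq1 : 1 ≤ q) (n : ℕ) :
    ¬ p ∣ ∏ i ∈ Finset.range n, (q ^ (2 * (i + 1)) - 1) := by
  rw [(Nat.prime_iff.mp hp).dvd_finsetProd_iff]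
  rintro ⟨i, -, hi⟩
  exact not_dvd_pow_sub_one hp hq hq1 (by omega) hi

/-- The product in the order of a unitary group. -/
theorem prod_unitary_lt (hq : 2 ≤ q) : ∀ n,
    (∏ i ∈ Finset.range (n + 1), (if Even i then q ^ (i + 2) - 1 else q ^ (i + 2) + 1)) <
      q ^ ((n + 1) * (n + 2) / 2 + (n + 1) + (n + 1) / 2) := by
  intro n
  induction n with
  | zero => simpa using sub_one_lt (by omega) 2
  | succ n ih =>
    rw [Finset.prod_range_succ]
    have e : (n + 1 + 1) * (n + 1 + 2) / 2 + (n + 1 + 1) = ((n + 1) * (n + 2) / 2 + (n + 1)) + (n + 1 + 2) := by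
      rw [show (n + 1 + 1) * (n + 1 + 2) = (n + 1) * (n + 2) + (n + 2) * 2 by ring,
        Nat.add_mul_div_right _ _ (by norm_num : 0 < 2)]
      ring
    rw [e]
    rcases Nat.even_or_odd (n + 1) with he | ho
    · rw [if_pos he, show (n + 1) * (n + 2) / 2 + (n + 1) + (n + 1 + 2) + (n + 1 + 1) / 2 =
        ((n + 1) * (n + 2) / 2 + (n + 1) + (n + 1) / 2) + (n + 1 + 2) by
          obtain ⟨k, hk⟩ := he; omega]
      exact mul_lt_pow (by omega) ih (sub_one_le _ _)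
    · rw [if_neg (Nat.not_even_iff_odd.mpr ho),
        show (n + 1) * (n + 2) / 2 + (n + 1) + (n + 1 + 2) + (n + 1 + 1) / 2 =
        ((n + 1) * (n + 2) / 2 + (n + 1) + (n + 1) / 2) + (n + 1 + 2 + 1) by
          obtain ⟨k, hk⟩ := ho; omega]
      exact mul_lt_pow (by omega) ih (add_one_le hq _)

section families

variable {F : Type} [Field F] [Fintype F] [hp : Fact p.Prime] [CharP F p]

theorem exists_q : ∃ f, 1 ≤ f ∧ Fintype.card F = p ^ f ∧ p ∣ Fintype.card F := by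
  obtain ⟨f, -, hf⟩ := FiniteField.card F p
  exact ⟨f, f.pos, hf, hf ▸ dvd_pow_self p f.pos.ne'⟩

theorem exists_root {k q : ℕ} (hk : 1 ≤ k) (hF : Fintype.card F = q ^ k) :
    ∃ f, q = p ^ f ∧ p ∣ q ∧ 2 ≤ q := by
  obtain ⟨e, -, he, hpe⟩ := exists_q (F := F) (p := p)
  rw [hF] at hpe he
  have h1 := hp.out.dvd_of_dvd_pow hpe
  obtain ⟨f, -, hf⟩ := (Nat.dvd_prime_pow hp.out).mp (he ▸ dvd_pow_self q (by omega : k ≠ 0))
  refine ⟨f, hf, h1, ?_⟩
  have h2 : 1 < q ^ k := hF ▸ Fintype.one_lt_card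
  by_contra hq
  interval_cases q <;> simp [show k ≠ 0 by omega] at h2

theorem psl (n : ℕ) (hn : 2 ≤ n) (C : ℕ)
    (hC : C = Nat.card (Matrix.ProjectiveSpecialLinearGroup (Fin n) F)) :
    C < p ^ (3 * C.factorization p) ∧
      ((n = 2 → Fintype.card F ≠ p ^ C.factorization p) → C ^ 3 < p ^ (8 * C.factorization p)) := by
  obtain ⟨f, hf1, hqf, hpq⟩ := exists_q (F := F) (p := p)
  set q := Fintype.card F with hqdef
  have hq : 2 ≤ q := Fintype.one_lt_card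
  have hC0 : C ≠ 0 := hC ▸ Nat.card_pos.ne'
  obtain ⟨m, rfl⟩ : ∃ m, n = m + 2 := ⟨n - 2, by omega⟩
  have hN : ∏ i : Fin (m + 2), (q ^ (m + 2) - q ^ (i : ℕ))
      = q ^ ((m + 1) * (m + 2) / 2) * ((q - 1) * ∏ i ∈ Finset.range (m + 1), (q ^ (i + 2) - 1)) := by
    rw [Fin.prod_univ_eq_prod_range fun i => q ^ (m + 2) - q ^ i]
    have h1 : ∀ i ∈ Finset.range (m + 2), q ^ (m + 2) - q ^ i = q ^ i * (q ^ (m + 2 - i) - 1) := by
      intro i hi
      rw [Nat.mul_sub, mul_one, ← pow_add, Nat.add_sub_cancel' (Finset.mem_range.mp hi).le]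
    rw [Finset.prod_congr rfl h1, Finset.prod_mul_distrib, Finset.prod_pow_eq_pow_sum]
    congr 1
    · rw [Finset.sum_range_id]
      congr 2
      rw [mul_comm]; rfl
    · rw [← Finset.prod_range_reflect, Finset.prod_range_succ', mul_comm]
      congr 1
      · rw [show m + 2 - (m + 2 - 1 - 0) = 1 by omega, pow_one]
      · refine Finset.prod_congr rfl fun i hi => ?_
        have := Finset.mem_range.mp hi
        congr 2
        omega
  have hcard : Nat.gcd (m + 2) (q - 1) * C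
      = q ^ ((m + 1) * (m + 2) / 2) * ∏ i ∈ Finset.range (m + 1), (q ^ (i + 2) - 1) := by
    have h := (S0243.result (F := F) (q := q) rfl (m + 2) hn).trans hN
    rw [mul_left_comm, mul_left_comm _ (q - 1), ← hC] at h
    exact Nat.eq_of_mul_eq_mul_left (by omega) h
  have hg : ¬ p ∣ Nat.gcd (m + 2) (q - 1) := by
    have := not_dvd_gcd_sub hp.out hpq (by omega) (m + 2) (le_refl 1)
    rwa [pow_one] at this
  have hM : ¬ p ∣ ∏ i ∈ Finset.range (m + 1), (q ^ (i + 2) - 1) := by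
    rw [(Nat.prime_iff.mp hp.out).dvd_finsetProd_iff]
    rintro ⟨i, -, hi⟩
    exact not_dvd_pow_sub_one hp.out hpq (by omega) (by omega) hi
  have hlt := prod_sub_lt hq m
  rcases Nat.eq_zero_or_pos m with rfl | hm
  · have hfac := factorization_eq hp.out hqf hcard hC0 hg hM
    rw [show (0 + 1) * (0 + 2) / 2 = 1 from rfl, mul_one] at hfac
    refine ⟨?_, fun h => absurd (hfac ▸ hqf) (h rfl)⟩
    have h3 : C < q ^ (1 + 2) := by
      calc C ≤ _ * C := Nat.le_mul_of_pos_left _ (Nat.pos_of_ne_zero fun h => hg (by rw [h]; exact dvd_zero p))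
        _ = _ := hcard
        _ < q ^ ((0 + 1) * (0 + 2) / 2) * q ^ ((0 + 1) * (0 + 2) / 2 + (0 + 1)) :=
            Nat.mul_lt_mul_of_pos_left hlt (Nat.pow_pos (by omega))
        _ = q ^ (1 + 2) := by rw [← pow_add]
    rw [hfac]
    rwa [hqf, ← pow_mul, mul_comm] at h3
  · have h6 : 3 * (m + 1) ≤ 2 * ((m + 1) * (m + 2) / 2) := by
      have he : 2 ∣ (m + 1) * (m + 2) := even_iff_two_dvd.mp (Nat.even_mul_succ_self (m + 1))
      rw [Nat.mul_div_cancel' he, mul_comm]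
      exact Nat.mul_le_mul_left _ (by omega)
    have h := bounds_of hp.out hqf hcard hC0 hg hM hlt (by omega) (by omega)
    exact ⟨h.1, fun _ => h.2⟩

theorem psu (n q : ℕ) (hn : 3 ≤ n) (hF : Fintype.card F = q ^ 2) (C : ℕ)
    (hC : C = Nat.card (Cfsg.PSU n F q)) : Bounds p C := by
  obtain ⟨f, hqf, hpq, hq⟩ := exists_root (F := F) (p := p) (by norm_num : 1 ≤ 2) hF
  have hC0 : C ≠ 0 := hC ▸ Nat.card_pos.ne'
  obtain ⟨m, rfl⟩ : ∃ m, n = m + 2 := ⟨n - 2, by omega⟩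
  set M := ∏ i ∈ Finset.range (m + 1), (if Even i then q ^ (i + 2) - 1 else q ^ (i + 2) + 1) with hMdef
  have hcard : Nat.gcd (m + 2) (q + 1) * C = q ^ ((m + 1) * (m + 2) / 2) * M := by
    have h := S0280.result (F := F) (q := q) hF (m + 2) (by omega)
    rw [← hC, Finset.prod_range_succ', show (m + 2) * (m + 2 - 1) = (m + 1) * (m + 2) by
      rw [mul_comm]; rfl] at h
    simp only [Nat.even_add_one, zero_add, pow_one, if_pos Even.zero, ite_not] at h
    rw [mul_left_comm, ← mul_assoc _ _ (q + 1), mul_comm _ (q + 1)] at h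
    exact Nat.eq_of_mul_eq_mul_left (by omega) h
  have hg : ¬ p ∣ Nat.gcd (m + 2) (q + 1) := by
    have := not_dvd_gcd_add hp.out hpq (m + 2) (le_refl 1)
    rwa [pow_one] at this
  have hM : ¬ p ∣ M := by
    rw [(Nat.prime_iff.mp hp.out).dvd_finsetProd_iff]
    rintro ⟨i, -, hi⟩
    split at hi
    · exact not_dvd_pow_sub_one hp.out hpq (by omega) (by omega) hi
    · exact not_dvd_pow_add_one hp.out hpq (by omega) hi
  rcases Nat.eq_or_lt_of_le (show 1 ≤ m by omega) with rfl | hm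
  · -- `PSU₃`
    refine bounds_of hp.out hqf hcard hC0 hg hM (e := 5) ?_ (by norm_num) (by norm_num)
    rw [hMdef, Finset.prod_range_succ, Finset.prod_range_one, if_pos Even.zero,
      if_neg (by norm_num)]
    simp only [zero_add, show 1 + 2 = 3 from rfl]
    calc (q ^ 2 - 1) * (q ^ 3 + 1) ≤ (q ^ 2 - 1) * q ^ 3 + q ^ 2 := by
          rw [mul_add, mul_one]; omega
      _ < q ^ 5 := by
        rw [Nat.sub_mul, one_mul, ← pow_add, show 2 + 3 = 5 from rfl]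
        have : q ^ 2 < q ^ 3 := Nat.pow_lt_pow_right (by omega) (by norm_num)
        have : q ^ 3 ≤ q ^ 5 := Nat.pow_le_pow_right (by omega) (by norm_num)
        omega
  · have he : 2 ∣ (m + 1) * (m + 2) := even_iff_two_dvd.mp (Nat.even_mul_succ_self (m + 1))
    refine bounds_of hp.out hqf hcard hC0 hg hM (prod_unitary_lt hq m) ?_ ?_
    · have : 4 * (m + 1) ≤ (m + 1) * (m + 2) := by
        rw [mul_comm 4]; exact Nat.mul_le_mul_left _ (by omega)
      omega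
    · rcases Nat.eq_or_lt_of_le (show 2 ≤ m by omega) with rfl | hm2
      · norm_num
      have : 5 * (m + 1) ≤ (m + 1) * (m + 2) := by
        rw [mul_comm 5]; exact Nat.mul_le_mul_left _ (by omega)
      omega

theorem psp (m : ℕ) (hm : 2 ≤ m) (C : ℕ) (hC : C = Nat.card (Cfsg.PSp m F)) : Bounds p C := by
  obtain ⟨f, hf1, hqf, hpq⟩ := exists_q (F := F) (p := p)
  set q := Fintype.card F with hqdef
  have hq : 2 ≤ q := Fintype.one_lt_card
  have hC0 : C ≠ 0 := hC ▸ Nat.card_pos.ne'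
  have hcard : Nat.gcd 2 (q - 1) * C = q ^ (m ^ 2) * ∏ i ∈ Finset.range m, (q ^ (2 * (i + 1)) - 1) := by
    have h := H2.card_sp (F := F) m
    rw [Nat.card_eq_fintype_card (α := F), ← hqdef] at h
    rw [← h, hC, Subgroup.card_eq_card_quotient_mul_card_subgroup
      (Subgroup.center (Matrix.symplecticGroup (Fin m) F)), H2.card_center_sp (by omega),
      Nat.card_eq_fintype_card (α := F), ← hqdef, mul_comm]
  have hg : ¬ p ∣ Nat.gcd 2 (q - 1) := by
    have := not_dvd_gcd_sub hp.out hpq (by omega) 2 (le_refl 1)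
    rwa [pow_one] at this
  obtain ⟨k, rfl⟩ : ∃ k, m = k + 1 := ⟨m - 1, by omega⟩
  exact bounds_of hp.out hqf hcard hC0 hg (prod_even_not_dvd hp.out hpq (by omega) _)
    (prod_even_lt hq k) (by nlinarith) (by nlinarith)

theorem pomegaOdd (m : ℕ) (hm : 3 ≤ m) (hodd : Odd (Fintype.card F)) (C : ℕ)
    (hC : C = Nat.card (Cfsg.POmega F (Cfsg.quadFormOdd m F))) : Bounds p C := by
  obtain ⟨f, hf1, hqf, hpq⟩ := exists_q (F := F) (p := p)
  have hq : 2 ≤ Fintype.card F := Fintype.one_lt_card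
  have hC0 : C ≠ 0 := hC ▸ Nat.card_pos.ne'
  have hcard := S0292.result (F := F) rfl hodd m hm
  rw [← hC] at hcard
  have hg : ¬ p ∣ 2 := fun h => by
    rw [(Nat.prime_dvd_prime_iff_eq hp.out Nat.prime_two).mp h] at hpq
    exact Nat.not_even_iff_odd.mpr hodd (even_iff_two_dvd.mpr hpq)
  obtain ⟨k, rfl⟩ : ∃ k, m = k + 1 := ⟨m - 1, by omega⟩
  exact bounds_of hp.out hqf hcard hC0 hg (prod_even_not_dvd hp.out hpq (by omega) _)
    (prod_even_lt hq k) (by nlinarith) (by nlinarith)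

theorem pomegaPlus (m : ℕ) (hm : 4 ≤ m) (C : ℕ)
    (hC : C = Nat.card (Cfsg.POmega F (Cfsg.quadFormPlus m F))) : Bounds p C := by
  obtain ⟨f, hf1, hqf, hpq⟩ := exists_q (F := F) (p := p)
  have hq : 2 ≤ Fintype.card F := Fintype.one_lt_card
  have hC0 : C ≠ 0 := hC ▸ Nat.card_pos.ne'
  have hcard := S0293.result (F := F) rfl m hm
  rw [← hC, mul_assoc] at hcard
  obtain ⟨k, rfl⟩ : ∃ k, m = k + 2 := ⟨m - 2, by omega⟩
  simp only [Nat.add_sub_cancel, show k + 2 - 1 = k + 1 by omega] at hcard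
  refine bounds_of hp.out hqf hcard hC0 (not_dvd_gcd_sub hp.out hpq (by omega) 4 (by omega)) ?_
    (e := (k + 2) + (k + 1) * (k + 2)) ?_ (by nlinarith) (by nlinarith)
  · rw [hp.out.dvd_mul]
    rintro (h | h)
    · exact not_dvd_pow_sub_one hp.out hpq (by omega) (by omega) h
    · exact prod_even_not_dvd hp.out hpq (by omega) _ h
  · rw [mul_comm, add_comm (k + 2)]
    exact mul_lt_pow (by omega) (prod_even_lt hq k) (sub_one_le _ _)

theorem pomegaMinus (m : ℕ) (hm : 4 ≤ m) (a b : F)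
    (hab : ∀ z₁ z₂ : F, z₁ ^ 2 + a * z₁ * z₂ + b * z₂ ^ 2 = 0 → z₁ = 0 ∧ z₂ = 0) (C : ℕ)
    (hC : C = Nat.card (Cfsg.POmega F (Cfsg.quadFormMinus (m - 1) F a b))) : Bounds p C := by
  obtain ⟨f, hf1, hqf, hpq⟩ := exists_q (F := F) (p := p)
  have hq : 2 ≤ Fintype.card F := Fintype.one_lt_card
  have hC0 : C ≠ 0 := hC ▸ Nat.card_pos.ne'
  have hcard := S0294.result (F := F) rfl m hm a b hab
  rw [← hC, mul_assoc] at hcard
  obtain ⟨k, rfl⟩ : ∃ k, m = k + 2 := ⟨m - 2, by omega⟩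
  simp only [show k + 2 - 1 = k + 1 by omega] at hcard
  refine bounds_of hp.out hqf hcard hC0 (not_dvd_gcd_add hp.out hpq 4 (by omega)) ?_
    (e := (k + 2 + 1) + (k + 1) * (k + 2)) ?_ (by nlinarith) (by nlinarith)
  · rw [hp.out.dvd_mul]
    rintro (h | h)
    · exact not_dvd_pow_add_one hp.out hpq (by omega) h
    · exact prod_even_not_dvd hp.out hpq (by omega) _ h
  · rw [mul_comm, add_comm (k + 2 + 1)]
    exact mul_lt_pow (by omega) (prod_even_lt hq k) (add_one_le hq _)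

theorem chevG2 (C : ℕ) (hC : C = Nat.card ↥(Cfsg.Lie.chevG2.group F)) : Bounds p C := by
  obtain ⟨f, hf1, hqf, hpq⟩ := exists_q (F := F) (p := p)
  have hq : 1 ≤ Fintype.card F := Fintype.card_pos
  have hC0 : C ≠ 0 := hC ▸ Nat.card_pos.ne'
  have hcard := S1059.result (F := F) rfl
  rw [← hC, ← one_mul C] at hcard
  simp only [mul_assoc (Fintype.card F ^ 6)] at hcard
  refine bounds_of hp.out hqf hcard hC0 hp.out.not_dvd_one ?_
    (mul_lt_pow hq (sub_one_lt hq 2) (sub_one_le _ 6)) (by norm_num) (by norm_num)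
  simp only [hp.out.dvd_mul, not_or]
  exact ⟨not_dvd_pow_sub_one hp.out hpq hq (by norm_num), not_dvd_pow_sub_one hp.out hpq hq (by norm_num)⟩

theorem chevF4 (C : ℕ) (hC : C = Nat.card ↥(Cfsg.Lie.chevF4.group F)) : Bounds p C := by
  obtain ⟨f, hf1, hqf, hpq⟩ := exists_q (F := F) (p := p)
  have hq : 1 ≤ Fintype.card F := Fintype.card_pos
  have hC0 : C ≠ 0 := hC ▸ Nat.card_pos.ne'
  have hcard := S1062.result (F := F) rfl
  rw [← hC, ← one_mul C] at hcard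
  simp only [mul_assoc (Fintype.card F ^ 24)] at hcard
  refine bounds_of hp.out hqf hcard hC0 hp.out.not_dvd_one ?_
    (mul_lt_pow hq (mul_lt_pow hq (mul_lt_pow hq (sub_one_lt hq 2) (sub_one_le _ 6)) (sub_one_le _ 8))
      (sub_one_le _ 12)) (by norm_num) (by norm_num)
  simp only [hp.out.dvd_mul, not_or]
  refine ⟨⟨⟨?_, ?_⟩, ?_⟩, ?_⟩ <;> exact not_dvd_pow_sub_one hp.out hpq hq (by norm_num)

theorem chevE6 (C : ℕ) (hC : C = Nat.card ↥(Cfsg.Lie.chevE6.group F)) : Bounds p C := by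
  obtain ⟨f, hf1, hqf, hpq⟩ := exists_q (F := F) (p := p)
  have hq : 1 ≤ Fintype.card F := Fintype.card_pos
  have hC0 : C ≠ 0 := hC ▸ Nat.card_pos.ne'
  have hcard := S1063.result (F := F) rfl
  rw [← hC] at hcard
  simp only [mul_assoc (Fintype.card F ^ 36)] at hcard
  refine bounds_of hp.out hqf hcard hC0 ?_ ?_
    (mul_lt_pow hq (mul_lt_pow hq (mul_lt_pow hq (mul_lt_pow hq (mul_lt_pow hq (sub_one_lt hq 2)
      (sub_one_le _ 5)) (sub_one_le _ 6)) (sub_one_le _ 8)) (sub_one_le _ 9)) (sub_one_le _ 12))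
    (by norm_num) (by norm_num)
  · have := not_dvd_gcd_sub hp.out hpq hq 3 (le_refl 1)
    rwa [pow_one] at this
  simp only [hp.out.dvd_mul, not_or]
  refine ⟨⟨⟨⟨⟨?_, ?_⟩, ?_⟩, ?_⟩, ?_⟩, ?_⟩ <;> exact not_dvd_pow_sub_one hp.out hpq hq (by norm_num)

theorem chevE7 (C : ℕ) (hC : C = Nat.card ↥(Cfsg.Lie.chevE7.group F)) : Bounds p C := by
  obtain ⟨f, hf1, hqf, hpq⟩ := exists_q (F := F) (p := p)
  have hq : 1 ≤ Fintype.card F := Fintype.card_pos
  have hC0 : C ≠ 0 := hC ▸ Nat.card_pos.ne'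
  have hcard := S1064.result (F := F) rfl
  rw [← hC] at hcard
  simp only [mul_assoc (Fintype.card F ^ 63)] at hcard
  refine bounds_of hp.out hqf hcard hC0 ?_ ?_
    (mul_lt_pow hq (mul_lt_pow hq (mul_lt_pow hq (mul_lt_pow hq (mul_lt_pow hq (mul_lt_pow hq
      (sub_one_lt hq 2) (sub_one_le _ 6)) (sub_one_le _ 8)) (sub_one_le _ 10)) (sub_one_le _ 12))
      (sub_one_le _ 14)) (sub_one_le _ 18))
    (by norm_num) (by norm_num)
  · have := not_dvd_gcd_sub hp.out hpq hq 2 (le_refl 1)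
    rwa [pow_one] at this
  simp only [hp.out.dvd_mul, not_or]
  refine ⟨⟨⟨⟨⟨⟨?_, ?_⟩, ?_⟩, ?_⟩, ?_⟩, ?_⟩, ?_⟩ <;>
    exact not_dvd_pow_sub_one hp.out hpq hq (by norm_num)

theorem chevE8 (C : ℕ) (hC : C = Nat.card ↥(Cfsg.Lie.chevE8.group F)) : Bounds p C := by
  obtain ⟨f, hf1, hqf, hpq⟩ := exists_q (F := F) (p := p)
  have hq : 1 ≤ Fintype.card F := Fintype.card_pos
  have hC0 : C ≠ 0 := hC ▸ Nat.card_pos.ne'
  have hcard := S1065.result (F := F) rfl
  rw [← hC, ← one_mul C] at hcard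
  simp only [mul_assoc (Fintype.card F ^ 120)] at hcard
  refine bounds_of hp.out hqf hcard hC0 hp.out.not_dvd_one ?_
    (mul_lt_pow hq (mul_lt_pow hq (mul_lt_pow hq (mul_lt_pow hq (mul_lt_pow hq (mul_lt_pow hq
      (mul_lt_pow hq (sub_one_lt hq 2) (sub_one_le _ 8)) (sub_one_le _ 12)) (sub_one_le _ 14))
      (sub_one_le _ 18)) (sub_one_le _ 20)) (sub_one_le _ 24)) (sub_one_le _ 30))
    (by norm_num) (by norm_num)
  simp only [hp.out.dvd_mul, not_or]
  refine ⟨⟨⟨⟨⟨⟨⟨?_, ?_⟩, ?_⟩, ?_⟩, ?_⟩, ?_⟩, ?_⟩, ?_⟩ <;>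
    exact not_dvd_pow_sub_one hp.out hpq hq (by norm_num)

theorem twistedE6 (q : ℕ) (hqp : IsPrimePow q) (hF : Fintype.card F = q ^ 2) (C : ℕ)
    (hC : C = Nat.card ↥(Cfsg.Lie.twistedE6 F q)) : Bounds p C := by
  obtain ⟨f, hqf, hpq, hq⟩ := exists_root (F := F) (p := p) (by norm_num : 1 ≤ 2) hF
  have hC0 : C ≠ 0 := hC ▸ Nat.card_pos.ne'
  have hcard := S1066.result hqp hF
  rw [← hC] at hcard
  simp only [mul_assoc (q ^ 36)] at hcard
  have hq1 : 1 ≤ q := by omega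
  refine bounds_of hp.out hqf hcard hC0 ?_ ?_
    (mul_lt_pow hq1 (mul_lt_pow hq1 (mul_lt_pow hq1 (mul_lt_pow hq1 (mul_lt_pow hq1 (sub_one_lt hq1 2)
      (add_one_le hq 5)) (sub_one_le _ 6)) (sub_one_le _ 8)) (add_one_le hq 9)) (sub_one_le _ 12))
    (by norm_num) (by norm_num)
  · have := not_dvd_gcd_add hp.out hpq 3 (le_refl 1)
    rwa [pow_one] at this
  simp only [hp.out.dvd_mul, not_or]
  exact ⟨⟨⟨⟨⟨not_dvd_pow_sub_one hp.out hpq hq1 (by norm_num), not_dvd_pow_add_one hp.out hpq (by norm_num)⟩,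
    not_dvd_pow_sub_one hp.out hpq hq1 (by norm_num)⟩, not_dvd_pow_sub_one hp.out hpq hq1 (by norm_num)⟩,
    not_dvd_pow_add_one hp.out hpq (by norm_num)⟩, not_dvd_pow_sub_one hp.out hpq hq1 (by norm_num)⟩

theorem twistedD4 (q : ℕ) (hqp : IsPrimePow q) (hF : Fintype.card F = q ^ 3) (C : ℕ)
    (hC : C = Nat.card ↥(Cfsg.Lie.twistedD4 F q)) : Bounds p C := by
  obtain ⟨f, hqf, hpq, hq⟩ := exists_root (F := F) (p := p) (by norm_num : 1 ≤ 3) hF
  have hC0 : C ≠ 0 := hC ▸ Nat.card_pos.ne'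
  have hcard := S1067.result hqp hF
  rw [← hC, ← one_mul C] at hcard
  simp only [mul_assoc (q ^ 12)] at hcard
  have hq1 : 1 ≤ q := by omega
  have h8 : q ^ 8 + q ^ 4 + 1 ≤ q ^ 9 := by
    have h1 : q ^ 4 + 1 ≤ q ^ 8 := (add_one_le hq 4).trans (Nat.pow_le_pow_right hq1 (by norm_num))
    have h2 := Nat.mul_le_mul_left (q ^ 8) hq
    rw [pow_succ q 8]
    omega
  refine bounds_of hp.out hqf hcard hC0 hp.out.not_dvd_one ?_
    (mul_lt_pow hq1 (mul_lt_pow hq1 (sub_one_lt hq1 2) (sub_one_le _ 6)) h8)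
    (by norm_num) (by norm_num)
  simp only [hp.out.dvd_mul, not_or]
  refine ⟨⟨?_, ?_⟩, ?_⟩
  · exact not_dvd_pow_sub_one hp.out hpq hq1 (by norm_num)
  · exact not_dvd_pow_sub_one hp.out hpq hq1 (by norm_num)
  · intro h
    exact hp.out.not_dvd_one ((Nat.dvd_add_right (dvd_add (hpq.trans (dvd_pow_self q (by norm_num)))
      (hpq.trans (dvd_pow_self q (by norm_num))))).mp h)

end families

theorem suzuki {F : Type} [Field F] [Fintype F] {m : ℕ} (hm : 1 ≤ m)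
    (hF : Fintype.card F = 2 ^ (2 * m + 1)) (C : ℕ)
    (hC : C = Nat.card ↥(Cfsg.Lie.Sz F (2 ^ (m + 1)))) : Bounds 2 C := by
  have hC0 : C ≠ 0 := hC ▸ Nat.card_pos.ne'
  have hcard := (S1163.result hm hF).1
  rw [← hC, ← one_mul C, mul_assoc] at hcard
  set q := 2 ^ (2 * m + 1) with hqdef
  have hq : 2 ≤ q := Nat.le_self_pow (by omega) 2
  have h2q : 2 ∣ q := dvd_pow_self 2 (by omega)
  refine bounds_of Nat.prime_two hqdef hcard hC0 Nat.prime_two.not_dvd_one ?_ (e := 3) ?_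
    (by norm_num) (by norm_num)
  · rw [Nat.prime_two.dvd_mul]
    rintro (h | h)
    · refine not_dvd_pow_sub_one Nat.prime_two h2q (by omega) (le_refl 1) ?_
      rwa [pow_one]
    · exact not_dvd_pow_add_one Nat.prime_two h2q (by norm_num) h
  · calc (q - 1) * (q ^ 2 + 1) ≤ (q - 1) * q ^ 2 + q := by rw [mul_add, mul_one]; omega
      _ < q ^ 3 := by
        rw [Nat.sub_mul, one_mul, pow_succ' q 2]
        have : q < q ^ 2 := by nlinarith
        have : q ^ 2 ≤ q * q ^ 2 := Nat.le_mul_of_pos_left _ (by omega)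
        omega

theorem ree {K : Type} [Field K] [Fintype K] {m : ℕ}
    (hK : Fintype.card K = 3 ^ (2 * m + 1)) (C : ℕ)
    (hC : C = Nat.card ↥(Cfsg.Lie.twistedG2 K (3 ^ m))) : Bounds 3 C := by
  have hC0 : C ≠ 0 := hC ▸ Nat.card_pos.ne'
  have hcard := S1069.result hK
  rw [← hC, ← one_mul C, mul_assoc] at hcard
  set q := 3 ^ (2 * m + 1) with hqdef
  have hq : 3 ≤ q := Nat.le_self_pow (by omega) 3
  have h3q : 3 ∣ q := dvd_pow_self 3 (by omega)
  refine bounds_of Nat.prime_three hqdef hcard hC0 Nat.prime_three.not_dvd_one ?_ (e := 4) ?_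
    (by norm_num) (by norm_num)
  · rw [Nat.prime_three.dvd_mul]
    rintro (h | h)
    · refine not_dvd_pow_sub_one Nat.prime_three h3q (by omega) (le_refl 1) ?_
      rwa [pow_one]
    · exact not_dvd_pow_add_one Nat.prime_three h3q (by norm_num) h
  · calc (q - 1) * (q ^ 3 + 1) ≤ (q - 1) * q ^ 3 + q := by rw [mul_add, mul_one]; omega
      _ < q ^ 4 := by
        rw [Nat.sub_mul, one_mul, pow_succ' q 3]
        have : q < q ^ 3 := by
          calc q = q ^ 1 := (pow_one q).symm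
            _ < q ^ 3 := Nat.pow_lt_pow_right (by omega) (by norm_num)
        have : q ^ 3 ≤ q * q ^ 3 := Nat.le_mul_of_pos_left _ (by omega)
        omega

/-- The arithmetic of the order of `²F₄(q)`. -/
theorem twistedF4 {m : ℕ} (C : ℕ) (hC0 : C ≠ 0)
    (hcard : C = (2 ^ (2 * m + 1)) ^ 12 * (2 ^ (2 * m + 1) - 1) * ((2 ^ (2 * m + 1)) ^ 3 + 1) *
      ((2 ^ (2 * m + 1)) ^ 4 - 1) * ((2 ^ (2 * m + 1)) ^ 6 + 1)) : Bounds 2 C := by
  set q := 2 ^ (2 * m + 1) with hqdef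
  have hq : 2 ≤ q := Nat.le_self_pow (by omega) 2
  have h2q : 2 ∣ q := dvd_pow_self 2 (by omega)
  have hcard' : 1 * C = q ^ 12 * ((q ^ 1 - 1) * (q ^ 3 + 1) * (q ^ 4 - 1) * (q ^ 6 + 1)) := by
    rw [one_mul, hcard, pow_one]; ring
  refine bounds_of Nat.prime_two hqdef hcard' hC0 Nat.prime_two.not_dvd_one ?_
    (mul_lt_pow (by omega) (mul_lt_pow (by omega) (mul_lt_pow (by omega) (sub_one_lt (by omega) 1)
      (add_one_le hq 3)) (sub_one_le _ 4)) (add_one_le hq 6))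
    (by norm_num) (by norm_num)
  simp only [Nat.prime_two.dvd_mul, not_or]
  exact ⟨⟨⟨not_dvd_pow_sub_one Nat.prime_two h2q (by omega) le_rfl,
    not_dvd_pow_add_one Nat.prime_two h2q (by norm_num)⟩,
    not_dvd_pow_sub_one Nat.prime_two h2q (by omega) (by norm_num)⟩,
    not_dvd_pow_add_one Nat.prime_two h2q (by norm_num)⟩

/-- The statement, given the order of `²F₄(q)`. -/
theorem main {G : Type*} [Group G] [Finite G] (p : ℕ) (hp : p.Prime) (hG : Cfsg.IsLieTypeChar p G)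
    (h2F4 : ∀ (K : Type) [Field K] [Fintype K] (m : ℕ), 1 ≤ m → Fintype.card K = 2 ^ (2 * m + 1) →
      Nat.card ↥(Cfsg.Lie.twistedF4 K (2 ^ m)) = (2 ^ (2 * m + 1)) ^ 12 * (2 ^ (2 * m + 1) - 1) *
        ((2 ^ (2 * m + 1)) ^ 3 + 1) * ((2 ^ (2 * m + 1)) ^ 4 - 1) * ((2 ^ (2 * m + 1)) ^ 6 + 1)) :
    Nat.card G < p ^ (3 * (Nat.card G).factorization p) ∧
      ((¬ ∃ (F : Type) (_ : Field F) (_ : Fintype F), Fintype.card F = p ^ (Nat.card G).factorization p ∧
          Nonempty (G ≃* Matrix.ProjectiveSpecialLinearGroup (Fin 2) F)) →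
        Nat.card G ^ 3 < p ^ (8 * (Nat.card G).factorization p)) := by
  have : Fact p.Prime := ⟨hp⟩
  suffices h : Bounds p (Nat.card G) ∨ (Nat.card G < p ^ (3 * (Nat.card G).factorization p) ∧
      ((¬ ∃ (F : Type) (_ : Field F) (_ : Fintype F), Fintype.card F = p ^ (Nat.card G).factorization p ∧
          Nonempty (G ≃* Matrix.ProjectiveSpecialLinearGroup (Fin 2) F)) →
        Nat.card G ^ 3 < p ^ (8 * (Nat.card G).factorization p))) by
    rcases h with h | h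
    · exact ⟨h.1, fun _ => h.2⟩
    · exact h
  rcases hG with h | h | h | h | h | h | h | h | ⟨rfl, h⟩ | ⟨rfl, h⟩ | ⟨rfl, h⟩
  · obtain ⟨F, _, _, _, n, hn, -, ⟨e⟩⟩ := h
    refine Or.inr ?_
    obtain ⟨h1, h2⟩ := psl (F := F) (p := p) n hn _ rfl
    rw [← Nat.card_congr e.toEquiv] at h1 h2
    refine ⟨h1, fun hno => h2 fun hn2 hcard => hno ?_⟩
    subst hn2
    exact ⟨F, inferInstance, inferInstance, hcard, ⟨e⟩⟩
  · obtain ⟨F, _, _, _, m, hm, -, ⟨e⟩⟩ := h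
    exact Or.inl (psp (F := F) m hm _ (Nat.card_congr e.toEquiv))
  · obtain ⟨F, _, _, _, n, q, hF, hn, -, ⟨e⟩⟩ := h
    exact Or.inl (psu (F := F) n q hn hF _ (Nat.card_congr e.toEquiv))
  · obtain ⟨F, _, _, _, m, hm, hodd, ⟨e⟩⟩ := h
    exact Or.inl (pomegaOdd (F := F) m hm hodd _ (Nat.card_congr e.toEquiv))
  · obtain ⟨F, _, _, _, m, hm, ⟨e⟩⟩ := h
    exact Or.inl (pomegaPlus (F := F) m hm _ (Nat.card_congr e.toEquiv))
  · obtain ⟨F, _, _, _, m, a, b, hm, hab, ⟨e⟩⟩ := h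
    exact Or.inl (pomegaMinus (F := F) m hm a b hab _ (Nat.card_congr e.toEquiv))
  · obtain ⟨F, _, _, _, h⟩ := h
    rcases h with ⟨-, ⟨e⟩⟩ | ⟨⟨e⟩⟩ | ⟨⟨e⟩⟩ | ⟨⟨e⟩⟩ | ⟨⟨e⟩⟩
    · exact Or.inl (chevG2 (F := F) _ (Nat.card_congr e.toEquiv))
    · exact Or.inl (chevF4 (F := F) _ (Nat.card_congr e.toEquiv))
    · exact Or.inl (chevE6 (F := F) _ (Nat.card_congr e.toEquiv))
    · exact Or.inl (chevE7 (F := F) _ (Nat.card_congr e.toEquiv))
    · exact Or.inl (chevE8 (F := F) _ (Nat.card_congr e.toEquiv))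
  · obtain ⟨K, _, _, _, q, hq, ⟨hK, ⟨e⟩⟩ | ⟨hK, ⟨e⟩⟩⟩ := h
    · exact Or.inl (twistedE6 (F := K) q hq hK _ (Nat.card_congr e.toEquiv))
    · exact Or.inl (twistedD4 (F := K) q hq hK _ (Nat.card_congr e.toEquiv))
  · obtain ⟨F, _, _, m, hm, hF, ⟨e⟩⟩ := h
    exact Or.inl (suzuki hm hF _ (Nat.card_congr e.toEquiv))
  · obtain ⟨K, _, _, m, hm, hK, ⟨e⟩⟩ := h
    exact Or.inl (twistedF4 _ Nat.card_pos.ne' ((Nat.card_congr e.toEquiv).trans (h2F4 K m hm hK)))
  · obtain ⟨K, _, _, m, -, hK, ⟨e⟩⟩ := h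
    exact Or.inl (ree hK _ (Nat.card_congr e.toEquiv))

end Cfsg.Agent.H71.LieOrderBound
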