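/-
`Ω_{2m+3}(q)`, `q` odd, has no element of order `p (q ^ m + 1)`.

Such an element has a semisimple part acting as a generator of a torus of order `q ^ m + 1` on a
`2m`-dimensional orthogonal summand and trivially on the three-dimensional complement; the sign of
the permutation it induces on the vectors of non-square norm is `-1`, so its spinor norm is non-trivial.
-/
import Cfsg.Agent.H5.OmegaSimple
import Cfsg.Agent.H74.Zsigmondy

set_option autoImplicit false

namespace Cfsg.Agent.H71.OddOrthogonalSpectrum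

open Cfsg.Agent.H5 QuadraticMap

/-- The sign of a permutation all of whose non-trivial cycles have the same even length. -/
theorem sign_eq_of_cycles {X : Type*} [Fintype X] [DecidableEq X] (σ : Equiv.Perm X) (N k : ℕ)
    (hN : Even N) (hN0 : N ≠ 0) (hσ : σ ^ N = 1)
    (hfree : ∀ x, σ x ≠ x → ∀ j, (σ ^ j) x = x → N ∣ j) (hk : σ.support.card = N * k) :
    Equiv.Perm.sign σ = (-1) ^ k := by
  have hall : ∀ a ∈ σ.cycleType, a = N := by
    intro a ha
    have h1 : a ∣ N := (Equiv.Perm.dvd_of_mem_cycleType ha).trans (orderOf_dvd_of_pow_eq_one hσ)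
    rw [Equiv.Perm.cycleType_def, Multiset.mem_map] at ha
    obtain ⟨c, hc, rfl⟩ := ha
    refine Nat.dvd_antisymm h1 ?_
    rw [Finset.mem_val, Equiv.Perm.mem_cycleFactorsFinset_iff] at hc
    obtain ⟨hcyc, hagree⟩ := hc
    obtain ⟨x, hx⟩ := hcyc.nonempty_support
    have hpow : ∀ j : ℕ, (σ ^ j) x = (c ^ j) x ∧ (c ^ j) x ∈ c.support := by
      intro j
      induction j with
      | zero => exact ⟨rfl, hx⟩
      | succ j ih =>
        rw [pow_succ', pow_succ', Equiv.Perm.mul_apply, Equiv.Perm.mul_apply, ih.1]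
        exact ⟨(hagree _ ih.2).symm, Equiv.Perm.apply_mem_support.mpr ih.2⟩
    refine hfree x ?_ _ ?_
    · rw [← hagree x hx]; exact Equiv.Perm.mem_support.mp hx
    · show (σ ^ c.support.card) x = x
      rw [(hpow _).1, ← hcyc.orderOf, pow_orderOf_eq_one, Equiv.Perm.one_apply]
  have hrep : σ.cycleType = Multiset.replicate (Multiset.card σ.cycleType) N :=
    Multiset.eq_replicate.mpr ⟨rfl, hall⟩
  have hsum : σ.cycleType.sum = N * k := by rw [Equiv.Perm.sum_cycleType, hk]
  have hcard : Multiset.card σ.cycleType = k := by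
    rw [hrep, Multiset.sum_replicate, smul_eq_mul, mul_comm] at hsum
    exact Nat.eq_of_mul_eq_mul_left (Nat.pos_of_ne_zero hN0) hsum
  rw [Equiv.Perm.sign_of_cycleType, hrep, Multiset.sum_replicate, Multiset.card_replicate, hcard,
    smul_eq_mul, pow_add, (hN.mul_left k).neg_one_pow, one_mul]

/-- A fixed-point-free invariant submodule has `q ^ dim ≡ 1` modulo the prime order. -/
theorem pow_finrank_cast {F V : Type*} [Field F] [Fintype F] [AddCommGroup V] [Module F V] [Fintype V]
    (r : ℕ) [Fact r.Prime] (T : Module.End F V) (hT : T ^ r = 1) (hfix : ∀ v, T v = v → v = 0) :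
    ((Fintype.card F : ℕ) : ZMod r) ^ Module.finrank F V = 1 := by
  classical
  let f : Function.End V := fun v => T v
  have hpow : ∀ (j : ℕ) (v : V), (f ^ j) v = (T ^ j) v := by
    intro j
    induction j with
    | zero => intro v; rfl
    | succ j ih =>
      intro v
      rw [pow_succ', pow_succ', Module.End.mul_apply, ← ih]
      rfl
  have hf : f ^ r ^ 1 = 1 := by
    rw [pow_one]
    exact funext fun v => by rw [hpow, hT]; rfl
  have hone : Fintype.card (Function.fixedPoints f) = 1 := by
    rw [Fintype.card_eq_one_iff]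
    exact ⟨⟨0, map_zero T⟩, fun v => Subtype.ext (hfix v.1 v.2)⟩
  have hmod := Equiv.Perm.card_fixedPoints_modEq hf
  rw [hone, ← ZMod.natCast_eq_natCast_iff] at hmod
  rw [← Nat.cast_pow, ← Module.card_eq_pow_finrank, hmod, Nat.cast_one]

/-- An endomorphism commuting with a regular nilpotent one of index three is a quadratic in it. -/
theorem commute_nilpotent {F Z : Type*} [Field F] [AddCommGroup Z] [Module F Z]
    (hdim : Module.finrank F Z = 3) (ν T : Module.End F Z) (h2 : ν ^ 2 ≠ 0) (h3 : ν ^ 3 = 0)
    (hc : Commute T ν) : ∃ (a : F) (R : Module.End F Z), T = a • 1 + R ∧ R ^ 3 = 0 := by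
  have : FiniteDimensional F Z := Module.finite_of_finrank_eq_succ hdim
  obtain ⟨z, hz⟩ : ∃ z, (ν ^ 2) z ≠ 0 := by
    by_contra h
    simp only [not_exists, not_not] at h
    exact h2 (LinearMap.ext h)
  have hν3 : ∀ v, ν (ν (ν v)) = 0 := fun v => by
    have := LinearMap.congr_fun h3 v
    simpa [pow_succ, Module.End.mul_apply] using this
  have hz' : ν (ν z) ≠ 0 := by simpa [pow_two, Module.End.mul_apply] using hz
  let f : Fin 3 → Z := ![z, ν z, ν (ν z)]
  have hli : LinearIndependent F f := by
    rw [Fintype.linearIndependent_iff]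
    intro g hg
    have e : g 0 • z + g 1 • ν z + g 2 • ν (ν z) = 0 := by
      simpa [f, Fin.sum_univ_three] using hg
    have e1 := congrArg ν e
    simp only [map_add, map_smul, hν3, smul_zero, add_zero, map_zero] at e1
    have e2 := congrArg ν e1
    simp only [map_add, map_smul, hν3, smul_zero, add_zero, map_zero, smul_eq_zero, hz', or_false] at e2
    rw [e2, zero_smul, zero_add] at e e1
    simp only [smul_eq_zero, hz', or_false] at e1
    rw [e1, zero_smul, zero_add, smul_eq_zero] at e
    intro i
    fin_cases i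
    exacts [e2, e1, e.resolve_right hz']
  have hspan : ⊤ ≤ Submodule.span F (Set.range f) := by
    rw [hli.span_eq_top_of_card_eq_finrank (by simp [hdim])]
  let b := Module.Basis.mk hli hspan
  have hb : ∀ i, b i = f i := fun i => by simp [b]
  obtain ⟨c, hc'⟩ : ∃ c : Fin 3 → F, T z = c 0 • z + c 1 • ν z + c 2 • ν (ν z) := by
    refine ⟨fun i => b.repr (T z) i, ?_⟩
    conv_lhs => rw [← b.sum_repr (T z)]
    simp [Fin.sum_univ_three, hb, f]
  have hTν : ∀ v, T (ν v) = ν (T v) := fun v => LinearMap.congr_fun hc.eq v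
  refine ⟨c 0, c 1 • ν + c 2 • (ν * ν), ?_, ?_⟩
  · refine b.ext fun i => ?_
    fin_cases i <;>
      simp [hb, f, hTν, hc', hν3, Module.End.mul_apply, map_add, map_smul, add_assoc]
  · have e : c 1 • ν + c 2 • (ν * ν) = ν * (c 1 • 1 + c 2 • ν) := by
      rw [mul_add, mul_smul_comm, mul_smul_comm, mul_one]
    rw [e, Commute.mul_pow, h3, zero_mul]
    exact ((Commute.one_right ν).smul_right _).add_right ((Commute.refl ν).smul_right _)

variable {F V : Type*} [Field F] [Fintype F] [AddCommGroup V] [Module F V] [FiniteDimensional F V]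
  [Finite V] {Q : QuadraticForm F V}

omit [Fintype F] in
/-- An isometry of order `p` of a three-dimensional non-degenerate space is regular. -/
theorem regular_of_unipotent {Z : Type*} [AddCommGroup Z] [Module F Z] (B : Z →ₗ[F] Z →ₗ[F] F)
    (h2 : (2 : F) ≠ 0) (hsymm : ∀ a b, B a b = B b a) (hB : ∀ a, (∀ b, B a b = 0) → a = 0)
    (hdim : Module.finrank F Z = 3) (ν : Module.End F Z)
    (hiso : ∀ a b, B (a + ν a) (b + ν b) = B a b) (hν : ν ≠ 0) : ν ^ 2 ≠ 0 := by
  intro hsq
  have : FiniteDimensional F Z := Module.finite_of_finrank_eq_succ hdim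
  have hνν : ∀ v, ν (ν v) = 0 := fun v => by
    simpa [pow_two, Module.End.mul_apply] using LinearMap.congr_fun hsq v
  have hsum : ∀ a b, B (ν a) b + B a (ν b) + B (ν a) (ν b) = 0 := fun a b => by
    have h := hiso a b
    simp only [map_add, LinearMap.add_apply] at h
    linear_combination h
  have htot : ∀ a b, B (ν a) (ν b) = 0 := fun a b => by simpa [hνν] using hsum a (ν b)
  let R : Submodule F Z := LinearMap.range ν
  have hR1 : Module.finrank F R ≤ 1 := by
    have hnd : LinearMap.BilinForm.Nondegenerate (B : LinearMap.BilinForm F Z) :=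
      ⟨hB, fun b hb => hB b fun a => by rw [hsymm]; exact hb a⟩
    have hle : R ≤ LinearMap.BilinForm.orthogonal (B : LinearMap.BilinForm F Z) R := by
      rintro _ ⟨b, rfl⟩ _ ⟨a, rfl⟩
      exact htot a b
    have h1 := Submodule.finrank_mono hle
    rw [LinearMap.BilinForm.finrank_orthogonal hnd R, hdim] at h1
    omega
  obtain ⟨a, ha⟩ : ∃ a, ν a ≠ 0 := by
    by_contra h
    simp only [not_exists, not_not] at h
    exact hν (LinearMap.ext h)
  set v := ν a with hv
  have hspan : ∀ b, ∃ t : F, ν b = t • v := by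
    intro b
    have hle : Submodule.span F {v} ≤ R := by
      rw [Submodule.span_singleton_le_iff_mem]; exact ⟨a, rfl⟩
    have he := Submodule.eq_of_le_of_finrank_le hle (by rwa [finrank_span_singleton ha])
    have hb : ν b ∈ R := ⟨b, rfl⟩
    rw [← he] at hb
    obtain ⟨t, ht⟩ := Submodule.mem_span_singleton.mp hb
    exact ⟨t, ht.symm⟩
  have hz : ∀ b, B v b = 0 ∨ ν b = 0 := by
    intro b
    obtain ⟨t, ht⟩ := hspan b
    have h := hsum b b
    rw [htot, add_zero, hsymm b (ν b), ht, map_smul, LinearMap.smul_apply, smul_eq_mul, ← two_mul,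
      mul_eq_zero, or_iff_right h2, mul_eq_zero] at h
    rcases h with h | h
    · exact Or.inr (by rw [ht, h, zero_smul])
    · exact Or.inl h
  obtain ⟨b, hb⟩ : ∃ b, B v b ≠ 0 := by
    by_contra h
    simp only [not_exists, not_not] at h
    exact ha (hB v h)
  have hνb := (hz b).resolve_left hb
  have ha' : B v a = 0 := (hz a).resolve_right ha
  rcases hz (a + b) with h | h
  · rw [map_add, ha', zero_add] at h; exact hb h
  · rw [map_add, hνb, add_zero] at h; exact ha h

set_option maxHeartbeats 1600000 in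
/-- The spinor norm of an element of order `p (q ^ m + 1)`. -/
theorem false_of_order (h2 : (2 : F) ≠ 0) (hQ : (polarBilin Q).Nondegenerate) {m : ℕ} (hm : 2 ≤ m)
    (hdim : Module.finrank F V = 2 * m + 3) (p : ℕ) [Fact p.Prime] [CharP F p] (g : orth Q)
    (hd : dick g = 1) (hs : spin Q g = 1) (hg : orderOf g = (Fintype.card F ^ m + 1) * p) : False := by
  classical
  have := Fintype.ofFinite V
  set q := Fintype.card F with hq
  set QQ := q ^ m with hQQ
  set N := QQ + 1 with hN
  obtain ⟨e, hpp, hqe⟩ := FiniteField.card F p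
  rw [← hq] at hqe
  have hp : p.Prime := Fact.out
  have hp2 : p ≠ 2 := by rintro rfl; exact h2 (by exact_mod_cast CharP.cast_eq_zero F 2)
  have hq2 : 2 < q := by
    have : 3 ≤ p := by have := hp.two_le; omega
    have : p ≤ q := hqe ▸ Nat.le_self_pow e.ne_zero p
    omega
  have hqodd : Odd q := hqe ▸ (hp.odd_of_ne_two hp2).pow
  have hNeven : Even N := Odd.add_one hqodd.pow
  have hQQ1 : 1 < QQ := Nat.one_lt_pow (by omega) (by omega)
  -- a primitive prime divisor
  obtain ⟨r, hr, hrdvd, hrk⟩ := H74.zsigmondy (a := q) (n := 2 * m) (by omega) (by omega)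
    (fun h => by omega) (fun h => by omega)
  have : Fact r.Prime := ⟨hr⟩
  have hrN : r ∣ N := by
    have h1 : q ^ (2 * m) - 1 = N * (QQ - 1) := by
      rw [hN, mul_comm 2 m, pow_mul, ← hQQ]
      exact Nat.sq_sub_sq QQ 1
    rw [h1] at hrdvd
    exact (hr.dvd_mul.mp hrdvd).resolve_right (hrk m (by omega) (by omega))
  have hord2m : ∀ d : ℕ, ((q : ℕ) : ZMod r) ^ d = 1 → 2 * m ∣ d := by
    intro d hd'
    have h1 : ((q : ℕ) : ZMod r) ^ (2 * m) = 1 := by
      rw [← Nat.cast_pow, ← Nat.cast_one, ZMod.natCast_eq_natCast_iff']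
      exact ((Nat.modEq_iff_dvd' (Nat.one_le_pow _ _ (by omega))).mpr hrdvd).symm
    have h2' : orderOf ((q : ℕ) : ZMod r) = 2 * m := by
      rw [orderOf_eq_iff (by omega)]
      refine ⟨h1, fun k hk hk0 h => hrk k hk0 hk ?_⟩
      rw [← Nat.cast_pow, ← Nat.cast_one, ZMod.natCast_eq_natCast_iff'] at h
      exact (Nat.modEq_iff_dvd' (Nat.one_le_pow _ _ (by omega))).mp h.symm
    exact h2' ▸ orderOf_dvd_of_pow_eq_one hd'
  have hrp : r ≠ p := by
    rintro rfl
    have h0 : r ∣ q ^ (2 * m) := (hqe ▸ dvd_pow_self r e.ne_zero).trans (dvd_pow_self q (by omega))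
    have h1 : 1 ≤ q ^ (2 * m) := Nat.one_le_pow _ _ (by omega)
    have h3 := Nat.dvd_sub h0 hrdvd
    rw [Nat.sub_sub_self h1, Nat.dvd_one] at h3
    exact hr.ne_one h3
  have hrF : (r : F) ≠ 0 := fun h =>
    hrp ((Nat.prime_dvd_prime_iff_eq hp hr).mp ((CharP.cast_eq_zero_iff F p r).mp h)).symm
  have hNp : Nat.Coprime N p := by
    refine (hp.coprime_iff_not_dvd.mpr fun h => ?_).symm
    have h0 : p ∣ QQ := (hqe ▸ dvd_pow_self p e.ne_zero).trans (dvd_pow_self q (by omega))
    exact hp.ne_one (Nat.dvd_one.mp ((Nat.dvd_add_right h0).mp h))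
  -- the semisimple and unipotent parts
  let sg : orth Q := g ^ p
  let ug : orth Q := g ^ N
  have hsgN : orderOf sg = N := by
    rw [orderOf_pow' g hp.ne_zero, hg, Nat.gcd_mul_left_left, Nat.mul_div_cancel _ hp.pos]
  have hugp : orderOf ug = p := by
    rw [orderOf_pow' g (by omega), hg, Nat.gcd_mul_right_left, Nat.mul_div_cancel_left _ (by omega)]
  have hsd : dick sg = 1 ∧ spin Q sg = 1 := by
    have h := map_pow (signPair hQ (std_of_five_le (by omega))) g p
    rw [signPair_apply, signPair_apply, hd, hs, Prod.mk_one_one, one_pow, Prod.mk_eq_one] at h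
    exact h
  let toEnd : orth Q →* Module.End F V :=
    { toFun := fun x => ((x : V ≃ₗ[F] V) : V →ₗ[F] V)
      map_one' := rfl
      map_mul' := fun x y => rfl }
  have htoEnd_inj : Function.Injective toEnd := fun a b h =>
    orth_ext fun x => LinearMap.congr_fun h x
  let H : Module.End F V := toEnd (sg ^ (N / r))
  have hHr : H ^ r = 1 := by
    rw [← map_pow, ← pow_mul, Nat.div_mul_cancel hrN, ← hsgN, pow_orderOf_eq_one, map_one]
  have hH1 : H ≠ 1 := by
    intro h
    have h' : sg ^ (N / r) = 1 := htoEnd_inj (h.trans (map_one toEnd).symm)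
    have h3 := orderOf_dvd_of_pow_eq_one h'
    rw [hsgN] at h3
    exact absurd (Nat.le_of_dvd (Nat.div_pos (Nat.le_of_dvd (by omega) hrN) hr.pos) h3)
      (not_le.mpr (Nat.div_lt_self (by omega) hr.one_lt))
  -- the projection on the fixed space
  let E : Module.End F V := (r : F)⁻¹ • ∑ i ∈ Finset.range r, H ^ i
  have hHE : H * E = E := by
    simp only [E, mul_smul_comm, Finset.mul_sum, ← pow_succ']
    congr 1
    have h1 := Finset.sum_range_succ' (fun i => H ^ i) r
    rw [Finset.sum_range_succ, hHr, pow_zero] at h1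
    exact (add_right_cancel h1).symm
  have hEfix : ∀ v, H v = v → E v = v := by
    intro v hv
    have hpow : ∀ i : ℕ, (H ^ i) v = v := fun i => by
      induction i with
      | zero => rfl
      | succ i ih => rw [pow_succ, Module.End.mul_apply, hv, ih]
    simp only [E, LinearMap.smul_apply, LinearMap.sum_apply, hpow, Finset.sum_const, Finset.card_range]
    rw [← Nat.cast_smul_eq_nsmul F, smul_smul, inv_mul_cancel₀ hrF, one_smul]
  have hHEv : ∀ v, H (E v) = E v := fun v => LinearMap.congr_fun hHE v
  have hcommE : ∀ x : orth Q, Commute x g → Commute (toEnd x) E := fun x hx =>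
    (Commute.sum_right _ _ _ fun i _ =>
      ((((hx.pow_right p).pow_right (N / r)).map toEnd).pow_right i)).smul_right _
  let W : Submodule F V := LinearMap.ker E
  let Z : Submodule F V := LinearMap.range E
  have hZmem : ∀ {v}, v ∈ Z → H v = v ∧ E v = v := by
    rintro v ⟨w, rfl⟩
    exact ⟨hHEv w, hEfix _ (hHEv w)⟩
  have hperp : ∀ z ∈ Z, ∀ w ∈ W, polar Q z w = 0 := by
    intro z hz w hw
    have hH' : ∀ i : ℕ, polar Q z ((H ^ i) w) = polar Q z w := by
      intro i
      induction i with
      | zero => rfl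
      | succ i ih =>
        rw [pow_succ', Module.End.mul_apply]
        conv_lhs => rw [← (hZmem hz).1]
        exact (orth_polar (sg ^ (N / r)) _ _).trans ih
    have h1 : polar Q z (E w) = polar Q z w := by
      show polarBilin Q z _ = _
      simp only [E, LinearMap.smul_apply, LinearMap.sum_apply, map_smul, map_sum]
      rw [Finset.sum_congr rfl fun i _ => show (polarBilin Q z) ((H ^ i) w) = polar Q z w from hH' i,
        Finset.sum_const, Finset.card_range, nsmul_eq_mul, smul_eq_mul, ← mul_assoc, inv_mul_cancel₀ hrF,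
        one_mul]
    rw [← h1, LinearMap.mem_ker.mp hw, polar_zero_right]
  have hWsub : ∀ v, v - E v ∈ W := fun v => by
    rw [LinearMap.mem_ker, map_sub, (hZmem ⟨v, rfl⟩).2, sub_self]
  have hsum : Module.finrank F Z + Module.finrank F W = 2 * m + 3 :=
    hdim ▸ E.finrank_range_add_finrank_ker
  -- restrictions
  have hinv : ∀ x : orth Q, Commute x g → ∀ w ∈ W, toEnd x w ∈ W := fun x hx w hw => by
    have h := LinearMap.congr_fun (hcommE x hx).eq.symm w
    simp only [Module.End.mul_apply] at h
    rw [LinearMap.mem_ker, h, LinearMap.mem_ker.mp hw, map_zero]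
  have hinvZ : ∀ x : orth Q, Commute x g → ∀ z ∈ Z, toEnd x z ∈ Z := fun x hx z hz => by
    have h := LinearMap.congr_fun (hcommE x hx).eq z
    simp only [Module.End.mul_apply, (hZmem hz).2] at h
    exact ⟨_, h.symm⟩
  have csg : Commute sg g := (Commute.refl g).pow_left p
  have cug : Commute ug g := (Commute.refl g).pow_left N
  let S : Module.End F W := (toEnd sg).restrict (hinv sg csg)
  let U : Module.End F W := (toEnd ug).restrict (hinv ug cug)
  let HW : Module.End F W := S ^ (N / r)
  have hSpow : ∀ (j : ℕ) (w : W), (((S ^ j) w : W) : V) = toEnd (sg ^ j) w := by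
    intro j
    induction j with
    | zero => intro w; simp
    | succ j ih =>
      intro w
      rw [pow_succ, pow_succ, map_mul, Module.End.mul_apply, Module.End.mul_apply, ih]
      rfl
  have hHW : ∀ w : W, ((HW w : W) : V) = H w := hSpow _
  have hSN : S ^ N = 1 := LinearMap.ext fun w => Subtype.ext (by
    rw [hSpow, ← hsgN, pow_orderOf_eq_one, map_one]; rfl)
  have hHWr : HW ^ r = 1 := by rw [← pow_mul, Nat.div_mul_cancel hrN, hSN]
  have hHWfix : ∀ w, HW w = w → w = 0 := fun w hw => Subtype.ext (by
    rw [← hEfix w (by rw [← hHW, hw]), LinearMap.mem_ker.mp w.2]; rfl)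
  have hdimU : ∀ X : Submodule F W, (∀ w ∈ X, HW w ∈ X) → 2 * m ∣ Module.finrank F X := by
    intro X hX
    refine hord2m _ (pow_finrank_cast r (HW.restrict hX) ?_ ?_)
    · rw [Module.End.pow_restrict]
      refine LinearMap.ext fun w => Subtype.ext ?_
      rw [LinearMap.restrict_coe_apply, hHWr]; rfl
    · exact fun w hw => Subtype.ext (hHWfix w (congrArg Subtype.val hw))
  have hW0 : Module.finrank F W ≠ 0 := by
    intro h
    refine hH1 (LinearMap.ext fun v => ?_)
    have h0 : v - E v = 0 := by
      have := hWsub v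
      rwa [Submodule.finrank_eq_zero.mp h, Submodule.mem_bot] at this
    rw [sub_eq_zero.mp h0]
    exact hHEv v
  have hW : Module.finrank F W = 2 * m := by
    have h := hdimU ⊤ fun _ _ => trivial
    rw [finrank_top] at h
    obtain ⟨k, hk⟩ := h
    rcases k with - | - | k
    · omega
    · omega
    · have : 2 * m * 2 ≤ 2 * m * (k + 1 + 1) := Nat.mul_le_mul_left _ (by omega)
      omega
  have hZ : Module.finrank F Z = 3 := by omega
  have hirr : ∀ X : Submodule F W, (∀ w ∈ X, HW w ∈ X) → X ≠ ⊥ → X = ⊤ := by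
    intro X hX h0
    obtain ⟨k, hk⟩ := hdimU X hX
    have hle := X.finrank_le
    refine Submodule.eq_top_of_finrank_eq ?_
    rcases k with - | k
    · exact absurd (Submodule.finrank_eq_zero.mp (by simpa using hk)) h0
    · have : 2 * m * 1 ≤ 2 * m * (k + 1) := Nat.mul_le_mul_left _ (by omega)
      omega
  have hinj : ∀ T : Module.End F W, Commute T HW → T ≠ 0 → Function.Injective T := by
    intro T hT h0
    rw [← LinearMap.ker_eq_bot]
    by_contra hne
    have htop := hirr (LinearMap.ker T) (fun w hw => by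
      rw [LinearMap.mem_ker, ← Module.End.mul_apply, hT.eq, Module.End.mul_apply,
        LinearMap.mem_ker.mp hw, map_zero]) hne
    exact h0 (LinearMap.ker_eq_top.mp htop)
  -- the field generated by the semisimple part on `W`
  let L : Subalgebra F (Module.End F W) := Algebra.adjoin F {S}
  let : CommRing L := Algebra.adjoinCommRingOfComm F (fun a ha b hb => by
    rw [Set.mem_singleton_iff] at ha hb; rw [ha, hb])
  let x : L := ⟨S, Algebra.subset_adjoin rfl⟩
  have hLcomm : ∀ y : L, Commute (y : Module.End F W) HW := fun y =>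
    show _ = _ from congrArg Subtype.val (mul_comm y (x ^ (N / r)))
  have : Nontrivial W := Module.nontrivial_of_finrank_pos (R := F) (M := W) (by omega)
  obtain ⟨w₀, hw₀⟩ := exists_ne (0 : W)
  let ev : L →ₗ[F] W :=
    { toFun := fun y => (y : Module.End F W) w₀
      map_add' := fun a b => rfl
      map_smul' := fun c a => rfl }
  have hev_inj : Function.Injective ev := by
    rw [← LinearMap.ker_eq_bot, LinearMap.ker_eq_bot']
    intro y hy
    by_contra h
    exact hw₀ (hinj _ (hLcomm y) (fun h0 => h (Subtype.ext h0)) (hy.trans (map_zero _).symm))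
  have hev_surj : Function.Surjective ev := by
    rw [← LinearMap.range_eq_top]
    refine hirr _ ?_ ?_
    · rintro _ ⟨y, rfl⟩
      exact ⟨x ^ (N / r) * y, rfl⟩
    · intro h
      have h1 : ev 1 ∈ LinearMap.range ev := ⟨1, rfl⟩
      rw [h, Submodule.mem_bot] at h1
      exact hw₀ h1
  let eL : L ≃ₗ[F] W := LinearEquiv.ofBijective ev ⟨hev_inj, hev_surj⟩
  have : Fintype L := Fintype.ofEquiv W eL.symm.toEquiv
  have : Nontrivial L := eL.toEquiv.nontrivial
  have : NoZeroDivisors L := ⟨fun {a b} hab => by
    by_contra h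
    simp only [not_or] at h
    refine h.2 (hev_inj ((?_ : ev b = 0).trans (map_zero ev).symm))
    refine hinj _ (hLcomm a) (fun h0 => h.1 (Subtype.ext h0)) ?_
    rw [map_zero]
    exact (congrArg (fun y : L => (y : Module.End F W) w₀) hab).trans rfl⟩
  have : IsDomain L := NoZeroDivisors.to_isDomain L
  let : Field L := Fintype.fieldOfDomain L
  have : CharP L p := charP_of_injective_algebraMap (algebraMap F L).injective p
  have hcardL : Fintype.card L = QQ ^ 2 := by
    rw [Module.card_eq_pow_finrank (K := F), ← hq, eL.finrank_eq, hW, hQQ, ← pow_mul, mul_comm]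
  -- the unipotent part is trivial on `W`
  have hUcomm : Commute U HW := by
    have h0 : Commute U S := LinearMap.ext fun w => Subtype.ext
      (LinearMap.congr_fun ((((Commute.refl g).pow_left N).pow_right p).map toEnd).eq w)
    exact h0.pow_right _
  have hUp : U ^ p = 1 := LinearMap.ext fun w => Subtype.ext (by
    have h : ∀ j : ℕ, (((U ^ j) w : W) : V) = toEnd (ug ^ j) w := by
      intro j
      induction j with
      | zero => simp
      | succ j ih =>
        rw [pow_succ', pow_succ', map_mul, Module.End.mul_apply, Module.End.mul_apply, ← ih]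
        rfl
    rw [h, ← hugp, pow_orderOf_eq_one, map_one]; rfl)
  have : CharP (Module.End F W) p := charP_of_injective_algebraMap (algebraMap F (Module.End F W)).injective p
  have hU1 : U = 1 := by
    by_contra h
    have hc : Commute (U - 1) HW := hUcomm.sub_left (Commute.one_left _)
    have hi := hinj _ hc (sub_ne_zero.mpr h)
    have hp0 : (U - 1) ^ p = 0 := by rw [sub_pow_char_of_commute _ (Commute.one_right U), hUp, one_pow, sub_self]
    have hall : ∀ j : ℕ, Function.Injective ((U - 1) ^ j : Module.End F W) := by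
      intro j
      induction j with
      | zero => exact Function.injective_id
      | succ j ih => rw [pow_succ, Module.End.mul_eq_comp]; exact ih.comp hi
    exact hw₀ (hall p (by rw [hp0]; simp))
  -- the semisimple part on `Z`
  have : FiniteDimensional F Z := Module.finite_of_finrank_eq_succ hZ
  have : CharP (Module.End F Z) p := by
    have : Nontrivial Z := Module.nontrivial_of_finrank_pos (R := F) (by omega)
    exact charP_of_injective_algebraMap (algebraMap F (Module.End F Z)).injective p
  let TZ : Module.End F Z := (toEnd sg).restrict (hinvZ sg csg)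
  let UZ : Module.End F Z := (toEnd ug).restrict (hinvZ ug cug)
  let B : Z →ₗ[F] Z →ₗ[F] F := (polarBilin Q).compl₁₂ Z.subtype Z.subtype
  have hBnd : ∀ a, (∀ b, B a b = 0) → a = 0 := by
    intro a ha
    refine Subtype.ext (hQ.1 _ fun v => ?_)
    show polar Q (a : V) v = 0
    have e : v = E v + (v - E v) := by abel
    rw [e, polar_add_right, hperp a a.2 _ (hWsub v), add_zero]
    exact ha ⟨E v, ⟨v, rfl⟩⟩
  have hUZ1 : UZ ≠ 1 := by
    intro h
    have h1 : ug = 1 := by
      refine htoEnd_inj (LinearMap.ext fun v => ?_)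
      have e : v = E v + (v - E v) := by abel
      have e1 : toEnd ug (E v) = E v := congrArg Subtype.val (LinearMap.congr_fun h ⟨E v, ⟨v, rfl⟩⟩)
      have e2 : toEnd ug (v - E v) = v - E v :=
        congrArg Subtype.val (LinearMap.congr_fun hU1 ⟨_, hWsub v⟩)
      rw [map_one, Module.End.one_apply]
      conv_lhs => rw [e, map_add, e1, e2]
      exact e.symm
    rw [h1, orderOf_one] at hugp
    exact hp.ne_one hugp.symm
  have hsymm : ∀ a b : Z, B a b = B b a := fun a b => polar_comm _ _ _
  have hν2 : (UZ - 1) ^ 2 ≠ 0 := by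
    refine regular_of_unipotent B h2 hsymm hBnd hZ _ (fun a b => ?_) (sub_ne_zero.mpr hUZ1)
    have e : ∀ a : Z, a + (UZ - 1) a = UZ a := fun a => by simp
    rw [e, e]
    exact orth_polar ug a b
  have hν3 : (UZ - 1) ^ 3 = 0 := by
    have hUp' : UZ ^ p = 1 := by
      refine LinearMap.ext fun z => Subtype.ext ?_
      have h : ∀ j : ℕ, (((UZ ^ j) z : Z) : V) = toEnd (ug ^ j) z := by
        intro j
        induction j with
        | zero => simp
        | succ j ih =>
          rw [pow_succ', pow_succ', map_mul, Module.End.mul_apply, Module.End.mul_apply, ← ih]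
          rfl
      rw [h, ← hugp, pow_orderOf_eq_one, map_one]; rfl
    have hp0 : IsNilpotent (UZ - 1) :=
      ⟨p, by rw [sub_pow_char_of_commute _ (Commute.one_right UZ), hUp', one_pow, sub_self]⟩
    obtain ⟨n, hn⟩ := hp0
    refine LinearMap.ker_eq_top.mp (top_le_iff.mp ?_)
    rw [← LinearMap.ker_eq_top.mpr hn, ← hZ]
    exact Module.End.ker_pow_le_ker_pow_finrank _ n
  have hcTU : Commute TZ (UZ - 1) := by
    refine Commute.sub_right (LinearMap.ext fun z => Subtype.ext ?_) (Commute.one_right _)
    exact LinearMap.congr_fun ((((Commute.refl g).pow_left p).pow_right N).map toEnd).eq (z : V)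
  obtain ⟨a, R, hTR, hR3⟩ := commute_nilpotent hZ _ TZ hν2 hν3 hcTU
  have hTpow : ∀ (j : ℕ) (z : Z), (((TZ ^ j) z : Z) : V) = toEnd (sg ^ j) z := by
    intro j
    induction j with
    | zero => intro z; simp
    | succ j ih =>
      intro z
      rw [pow_succ, pow_succ, map_mul, Module.End.mul_apply, Module.End.mul_apply, ih]
      rfl
  obtain ⟨ε, hε⟩ : ∃ ε : F, TZ = ε • 1 := by
    have h2' : TZ ^ (p * p) = a ^ (p * p) • 1 := by
      rw [hTR, show p * p = p ^ 2 by ring,
        add_pow_char_pow_of_commute p 2 ((Commute.one_left R).smul_left a), _root_.smul_pow, one_pow,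
        pow_eq_zero_of_le (show 3 ≤ p ^ 2 from le_trans (by norm_num) (Nat.pow_le_pow_left hp.two_le 2)) hR3,
        add_zero]
    obtain ⟨j, hj⟩ : ∃ j, p * p * j ≡ 1 [MOD N] := by
      obtain ⟨j, -, hj⟩ := Nat.exists_mul_mod_eq_one_of_coprime (n := p * p) (k := N)
        (Nat.Coprime.mul_left hNp.symm hNp.symm) (by omega)
      exact ⟨j, by rw [Nat.ModEq, hj, Nat.mod_eq_of_lt (by omega)]⟩
    refine ⟨(a ^ (p * p)) ^ j, ?_⟩
    have h3 : TZ ^ (p * p * j) = TZ := by
      refine LinearMap.ext fun z => Subtype.ext ?_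
      rw [hTpow, pow_eq_pow_of_modEq hj (hsgN ▸ pow_orderOf_eq_one sg), pow_one]
      rfl
    rw [← h3, pow_mul, h2', _root_.smul_pow, one_pow]
  have hTzv : ∀ z ∈ Z, toEnd sg z = ε • z := fun z hz =>
    congrArg Subtype.val (LinearMap.congr_fun hε ⟨z, hz⟩)
  have hSfix : ∀ w ∈ W, toEnd sg w = w → w = 0 := by
    intro w hw h
    refine congrArg Subtype.val (hHWfix ⟨w, hw⟩ (Subtype.ext ?_))
    have hj : ∀ j : ℕ, toEnd (sg ^ j) w = w := fun j => by
      induction j with
      | zero => rw [pow_zero, map_one]; rfl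
      | succ j ih => rw [pow_succ, map_mul, Module.End.mul_apply, h, ih]
    rw [hHW]; exact hj _
  have hrk : ε = 1 := by
    by_contra hne
    have htop : resid sg = ⊤ := by
      refine LinearMap.range_eq_top.mpr (LinearMap.surjective_of_injective ?_)
      rw [← LinearMap.ker_eq_bot, LinearMap.ker_eq_bot']
      intro v hv
      rw [dLin_apply, sub_eq_zero] at hv
      change toEnd sg v = v at hv
      have h0 : toEnd sg (E v) = E v := by
        have h := LinearMap.congr_fun (hcommE sg csg).eq v
        simp only [Module.End.mul_apply, hv] at h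
        exact h
      have hEv : E v = 0 := by
        rw [hTzv _ ⟨v, rfl⟩] at h0
        have : (ε - 1) • E v = 0 := by rw [sub_smul, h0, one_smul, sub_self]
        exact (smul_eq_zero.mp this).resolve_left (sub_ne_zero.mpr hne)
      exact hSfix v (LinearMap.mem_ker.mpr hEv) hv
    have h := hsd.1
    rw [dick, rk, htop, finrank_top, hdim, (show Odd (2 * m + 3) from ⟨m + 1, by ring⟩).neg_one_pow] at h
    exact absurd h (by decide)
  have hTz : ∀ z ∈ Z, toEnd sg z = z := fun z hz => by rw [hTzv z hz, hrk, one_smul]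
  -- the orbit structure on `W`
  have hxord : ∀ j : ℕ, x ^ j = 1 → N ∣ j := by
    intro j hj
    rw [← hsgN]
    refine orderOf_dvd_of_pow_eq_one (htoEnd_inj ?_)
    refine LinearMap.ext fun v => ?_
    have e : v = E v + (v - E v) := by abel
    have e1 : ∀ i : ℕ, toEnd (sg ^ i) (E v) = E v := fun i => by
      induction i with
      | zero => rw [pow_zero, map_one]; rfl
      | succ i ih => rw [pow_succ, map_mul, Module.End.mul_apply, hTz _ ⟨v, rfl⟩, ih]
    have e2 : toEnd (sg ^ j) (v - E v) = v - E v := by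
      have hS : S ^ j = 1 := congrArg Subtype.val hj
      exact (hSpow j ⟨_, hWsub v⟩).symm.trans (by rw [hS]; rfl)
    rw [map_one, Module.End.one_apply]
    conv_lhs => rw [e, map_add, e1 j, e2]
    exact e.symm
  have hxN : x ^ N = 1 := Subtype.ext hSN
  -- the adjoint is the Frobenius of order two
  have hQQp : QQ = p ^ ((e : ℕ) * m) := by rw [hQQ, hqe, ← pow_mul]
  have hadd : ∀ a b : L, (a + b) ^ QQ = a ^ QQ + b ^ QQ := fun a b => by
    rw [hQQp]; exact add_pow_char_pow a b p _
  have halg : ∀ c : F, (algebraMap F L c) ^ QQ = algebraMap F L c := fun c => by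
    rw [← map_pow, hQQ, hq, FiniteField.pow_card_pow]
  have hLL : ∀ a : L, a ^ (QQ * QQ) = a := fun a => by
    rw [← pow_two, ← hcardL, FiniteField.pow_card]
  have hadj : ∀ (y : L) (a b : W), polar Q (((y : Module.End F W) a : W) : V) (b : V) =
      polar Q (a : V) ((((y ^ QQ : L) : Module.End F W) b : W) : V) := by
    rintro ⟨y, hy⟩
    induction hy using Algebra.adjoin_induction with
    | mem y hy =>
      rw [Set.mem_singleton_iff] at hy
      subst hy
      intro a b
      have e : toEnd sg ((((x ^ QQ : L) : Module.End F W) b : W) : V) = b := by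
        have h1 : ((x ^ (QQ + 1) : L) : Module.End F W) b = b := by rw [← hN, hxN]; rfl
        rw [pow_succ'] at h1
        exact congrArg Subtype.val h1
      conv_lhs => rw [← e]
      exact orth_polar sg _ _
    | algebraMap c =>
      intro a b
      change polar Q ((c • a : W) : V) b = polar Q a ((((algebraMap F L c) ^ QQ : L) : Module.End F W) b : W)
      rw [halg]
      change polar Q (c • (a : V)) b = polar Q (a : V) (c • (b : V))
      rw [polar_smul_left, polar_smul_right]
    | add u v hu hv ihu ihv =>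
      intro a b
      have e := hadd ⟨u, hu⟩ ⟨v, hv⟩
      rw [show (⟨u + v, add_mem hu hv⟩ : L) = ⟨u, hu⟩ + ⟨v, hv⟩ from rfl, e]
      change polar Q ((u a : V) + (v a : V)) b = polar Q (a : V) ((_ : V) + (_ : V))
      rw [polar_add_left, polar_add_right]
      exact congrArg₂ (· + ·) (ihu a b) (ihv a b)
    | mul u v hu hv ihu ihv =>
      intro a b
      rw [show (⟨u * v, mul_mem hu hv⟩ : L) = ⟨u, hu⟩ * ⟨v, hv⟩ from rfl, mul_pow,
        mul_comm ((⟨u, hu⟩ : L) ^ QQ)]
      exact (ihu (v a) b).trans (ihv a _)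
  let φ : L →ₗ[F] F := (2 : F)⁻¹ • (((polarBilin Q) (w₀ : V)).comp (W.subtype.comp ev))
  have hφ : ∀ y : L, Q ((ev y : W) : V) = φ (y ^ (QQ + 1)) := by
    intro y
    have h := hadj y w₀ (ev y)
    rw [show ((y : Module.End F W) w₀ : W) = ev y from rfl, polar_self'] at h
    show _ = (2 : F)⁻¹ * polar Q (w₀ : V) ((ev (y ^ (QQ + 1)) : W) : V)
    rw [pow_succ, show (ev (y ^ QQ * y) : W) = ((y ^ QQ : L) : Module.End F W) (ev y) from rfl, ← h,
      inv_mul_cancel_left₀ h2]
  -- the subfield of norms
  let K : Submodule F L :=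
    { carrier := {k | k ^ QQ = k}
      add_mem' := fun {a b} (ha : a ^ QQ = a) (hb : b ^ QQ = b) => show _ = _ by rw [hadd, ha, hb]
      zero_mem' := show _ = _ from zero_pow (by omega)
      smul_mem' := fun c a (ha : a ^ QQ = a) => show _ = _ by
        rw [Algebra.smul_def, mul_pow, halg, ha] }
  let f : Lˣ →* Lˣ := powMonoidHom (QQ + 1)
  have hcardU : Nat.card Lˣ = (QQ + 1) * (QQ - 1) := by
    rw [Nat.card_units, Nat.card_eq_fintype_card, hcardL]
    exact Nat.sq_sub_sq QQ 1
  have hker : Nat.card f.ker = QQ + 1 := by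
    rw [IsCyclic.card_powMonoidHom_ker, hcardU, Nat.gcd_mul_right_left]
  have hrange : ∀ k : Lˣ, k ∈ f.range ↔ (k : L) ∈ K := by
    have hle : f.range ≤ (powMonoidHom (QQ - 1) : Lˣ →* Lˣ).ker := by
      rintro _ ⟨y, rfl⟩
      show (y ^ (QQ + 1)) ^ (QQ - 1) = 1
      rw [← pow_mul, ← hcardU, pow_card_eq_one']
    have heq : f.range = (powMonoidHom (QQ - 1) : Lˣ →* Lˣ).ker := by
      refine Subgroup.eq_of_le_of_card_ge hle ?_
      rw [IsCyclic.card_powMonoidHom_ker, hcardU, Nat.gcd_mul_left_left, IsCyclic.card_powMonoidHom_range,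
        hcardU, Nat.gcd_mul_right_left, Nat.mul_div_cancel_left _ (by omega)]
    intro k
    rw [heq]
    show k ^ (QQ - 1) = 1 ↔ (k : L) ^ QQ = k
    rw [← Units.val_pow_eq_pow_val, Units.val_inj]
    conv_rhs => lhs; rw [show QQ = QQ - 1 + 1 by omega, pow_succ]
    exact mul_eq_right.symm
  have hcardrange : Nat.card f.range = QQ - 1 := by
    rw [IsCyclic.card_powMonoidHom_range, hcardU, Nat.gcd_mul_right_left,
      Nat.mul_div_cancel_left _ (by omega)]
  have hcardK : Nat.card K = QQ := by
    have e : Option f.range ≃ K :=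
      { toFun := fun o => o.elim 0 fun k => ⟨((k : Lˣ) : L), (hrange _).mp k.2⟩
        invFun := fun k => if hk : (k : L) = 0 then none else
          some ⟨Units.mk0 _ hk, (hrange _).mpr k.2⟩
        left_inv := fun o => by
          cases o with
          | none => simp
          | some k => simp
        right_inv := fun k => by
          by_cases hk : (k : L) = 0
          · simp only [dif_pos hk]; exact Subtype.ext hk.symm
          · simp only [dif_neg hk]; rfl }
    rw [← Nat.card_congr e, Finite.card_option, hcardrange]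
    omega
  let φK : K →ₗ[F] F := φ.comp K.subtype
  have hφK : LinearMap.range φK = ⊤ := by
    by_contra hne
    have h0 : φK = 0 := by
      rcases Ideal.eq_bot_or_top (LinearMap.range φK) with h | h
      · exact LinearMap.range_eq_bot.mp h
      · exact absurd h hne
    have hQW : ∀ w : W, Q (w : V) = 0 := by
      intro w
      obtain ⟨y, rfl⟩ := hev_surj w
      rw [hφ]
      refine LinearMap.congr_fun h0 ⟨y ^ (QQ + 1), ?_⟩
      show (y ^ (QQ + 1)) ^ QQ = y ^ (QQ + 1)
      rw [← pow_mul, Nat.succ_mul, pow_add, hLL, pow_succ']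
    refine hw₀ (Subtype.ext (hQ.1 _ fun v => ?_))
    show polar Q (w₀ : V) v = 0
    have e : v = E v + (v - E v) := by abel
    rw [e, polar_add_right, polar_comm, hperp _ ⟨v, rfl⟩ _ w₀.2, zero_add]
    have h1 := hQW (w₀ + ⟨_, hWsub v⟩)
    simp only [polar, Submodule.coe_add] at h1 ⊢
    rw [h1, hQW w₀, hQW ⟨_, hWsub v⟩, sub_zero, sub_zero]
  -- fibres
  have hfib : ∀ d : F, Nat.card {k : K // φK k = d} = q ^ (m - 1) := by
    intro d
    obtain ⟨k₀, hk₀⟩ := LinearMap.range_eq_top.mp hφK d
    let e : {k : K // φK k = d} ≃ LinearMap.ker φK :=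
      { toFun := fun k => ⟨k.1 - k₀, by rw [LinearMap.mem_ker, map_sub, k.2, hk₀, sub_self]⟩
        invFun := fun k => ⟨k.1 + k₀, by rw [map_add, LinearMap.mem_ker.mp k.2, hk₀, zero_add]⟩
        left_inv := fun k => Subtype.ext (sub_add_cancel _ _)
        right_inv := fun k => Subtype.ext (add_sub_cancel_right _ _) }
    have h1 := φK.finrank_range_add_finrank_ker
    rw [hφK, finrank_top, Module.finrank_self] at h1
    have h2' : Module.finrank F K = m := by
      have h3 := Module.natCard_eq_pow_finrank (K := F) (V := K)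
      rw [hcardK, Nat.card_eq_fintype_card, ← hq, hQQ] at h3
      exact (Nat.pow_right_injective (by omega) h3).symm
    rw [Nat.card_congr e, Module.natCard_eq_pow_finrank (K := F), Nat.card_eq_fintype_card, ← hq]
    congr 1
    omega
  let A : F → ℕ := fun d => Nat.card {k : f.range // φ ((k : Lˣ) : L) = d}
  have hA : ∀ d : F, ((A d : ℕ) : ZMod 2) = 1 + (if d = 0 then 1 else 0) := by
    intro d
    have hqz : (((q ^ (m - 1) : ℕ)) : ZMod 2) = 1 :=
      ZMod.natCast_eq_one_iff_odd.mpr hqodd.pow
    by_cases hd0 : d = 0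
    · subst hd0
      have e : Option {k : f.range // φ ((k : Lˣ) : L) = 0} ≃ {k : K // φK k = 0} :=
        { toFun := fun o => o.elim ⟨0, map_zero φK⟩ fun k => ⟨⟨_, (hrange _).mp k.1.2⟩, k.2⟩
          invFun := fun k => if hk : ((k.1 : K) : L) = 0 then none else
            some ⟨⟨Units.mk0 _ hk, (hrange _).mpr k.1.2⟩, k.2⟩
          left_inv := fun o => by
            cases o with
            | none => simp
            | some k => simp
          right_inv := fun k => by
            by_cases hk : ((k.1 : K) : L) = 0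
            · simp only [dif_pos hk]; exact Subtype.ext (Subtype.ext hk.symm)
            · simp only [dif_neg hk]; rfl }
      have h := congrArg (fun n : ℕ => (n : ZMod 2)) ((Nat.card_congr e).trans (hfib 0))
      simp only [Finite.card_option, Nat.cast_add, Nat.cast_one, hqz] at h
      rw [if_pos rfl, show (1 : ZMod 2) + 1 = 0 from by decide]
      linear_combination h
    · let e : {k : f.range // φ ((k : Lˣ) : L) = d} ≃ {k : K // φK k = d} :=
        { toFun := fun k => ⟨⟨_, (hrange _).mp k.1.2⟩, k.2⟩
          invFun := fun k => ⟨⟨Units.mk0 ((k.1 : K) : L) (fun h => hd0 (by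
              rw [← k.2]; show φ _ = 0; rw [show K.subtype k.1 = 0 from h, map_zero])),
            (hrange _).mpr k.1.2⟩, k.2⟩
          left_inv := fun k => by simp
          right_inv := fun k => rfl }
      rw [if_neg hd0, add_zero]
      show ((Nat.card _ : ℕ) : ZMod 2) = 1
      rw [Nat.card_congr e, hfib, hqz]
  -- the permutation on vectors of non-square norm
  have hnsq : ∃ c : F, ¬ IsSquare c := exists_not_isSquare h2
  set c := hnsq.choose with hc
  have hspin : normSign Q c sg = 1 := by
    have h := hsd.2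
    rw [spin, dif_pos hnsq] at h
    exact h
  set σ := normPerm Q c sg with hσdef
  have := Fintype.ofFinite {v : V // Q v = c}
  have hσj : ∀ (j : ℕ) (v : {v : V // Q v = c}), (((σ ^ j) v : _) : V) = toEnd (sg ^ j) (v : V) := by
    intro j v
    rw [hσdef, ← map_pow]; rfl
  have hmoved : ∀ v : {v : V // Q v = c}, σ v ≠ v ↔ (v : V) - E v ≠ 0 := by
    intro v
    rw [not_iff_not, ← Subtype.val_injective.eq_iff]
    show toEnd sg (v : V) = v ↔ _
    have e : (v : V) = E (v : V) + ((v : V) - E v) := by abel
    constructor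
    · intro h
      refine hSfix _ (hWsub _) ?_
      rw [map_sub, h, hTz _ ⟨_, rfl⟩]
    · intro h
      rw [sub_eq_zero] at h
      rw [h, hTz _ ⟨_, rfl⟩]
  -- the moved points
  let P := (z : Z) × {y : Lˣ // φ ((f y : Lˣ) : L) = c - Q (z : V)}
  have hQadd : ∀ (z : Z) (w : W), Q ((z : V) + w) = Q (z : V) + Q (w : V) := fun z w => by
    rw [QuadraticMap.map_add (⇑Q), hperp z z.2 w w.2, add_zero]
  have hEsplit : ∀ (z : Z) (w : W), E ((z : V) + w) = z := fun z w => by
    rw [map_add, (hZmem z.2).2, LinearMap.mem_ker.mp w.2, add_zero]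
  let eP : {v : {v : V // Q v = c} // σ v ≠ v} ≃ P :=
    { toFun := fun v => ⟨⟨E v.1.1, ⟨_, rfl⟩⟩, ⟨Units.mk0 (eL.symm ⟨_, hWsub v.1.1⟩) (fun h => by
          refine (hmoved v.1).mp v.2 ?_
          exact congrArg Subtype.val (eL.symm.map_eq_zero_iff.mp h)), by
        show φ ((eL.symm ⟨_, hWsub v.1.1⟩) ^ (QQ + 1)) = _
        rw [← hφ, show ev (eL.symm ⟨_, hWsub v.1.1⟩) = ⟨_, hWsub v.1.1⟩ from eL.apply_symm_apply _]
        have h := hQadd ⟨E v.1.1, ⟨_, rfl⟩⟩ ⟨_, hWsub v.1.1⟩
        simp only [add_sub_cancel] at h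
        rw [v.1.2] at h
        linear_combination -h⟩⟩
      invFun := fun a => ⟨⟨(a.1 : V) + ev (a.2.1 : L), by
          rw [hQadd, hφ]
          have := a.2.2
          simp only [f, powMonoidHom_apply, Units.val_pow_eq_pow_val] at this
          rw [this]; ring⟩, by
          rw [hmoved]
          simp only [hEsplit, add_sub_cancel_left]
          intro h
          exact a.2.1.ne_zero (eL.map_eq_zero_iff.mp (Subtype.ext h))⟩
      left_inv := fun v => by
        refine Subtype.ext (Subtype.ext ?_)
        show E v.1.1 + ((ev (eL.symm ⟨_, hWsub v.1.1⟩) : W) : V) = v.1.1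
        rw [show ev (eL.symm ⟨_, hWsub v.1.1⟩) = ⟨_, hWsub v.1.1⟩ from eL.apply_symm_apply _]
        exact add_sub_cancel _ _
      right_inv := fun a => by
        obtain ⟨z, y, hy⟩ := a
        have hz : (⟨E ((z : V) + ev (y : L)), ⟨_, rfl⟩⟩ : Z) = z := Subtype.ext (hEsplit z _)
        refine Sigma.ext hz ?_
        refine (Subtype.heq_iff_coe_eq fun u => ?_).mpr ?_
        · simp only [hEsplit]
        · refine Units.ext ?_
          show eL.symm _ = (y : L)
          rw [LinearEquiv.symm_apply_eq]
          exact Subtype.ext (by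
            show ((z : V) + ev (y : L)) - E ((z : V) + ev (y : L)) = _
            rw [hEsplit]; simp; rfl) }
  have hcount : σ.support.card = N * ∑ z : Z, A (c - Q (z : V)) := by
    have h1 : σ.support.card = Nat.card {v : {v : V // Q v = c} // σ v ≠ v} := by
      rw [Nat.card_eq_fintype_card]
      exact (Fintype.card_of_subtype _ fun v => Equiv.Perm.mem_support).symm
    rw [h1, Nat.card_congr eP, Nat.card_sigma, Finset.mul_sum]
    refine Finset.sum_congr rfl fun z _ => ?_
    let e2 : {y : Lˣ // φ ((f y : Lˣ) : L) = c - Q (z : V)} ≃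
        {k : f.range // φ ((k : Lˣ) : L) = c - Q (z : V)} × f.ker :=
      { toFun := fun y => (⟨⟨f y.1, ⟨_, rfl⟩⟩, y.2⟩,
          ⟨y.1 / (Classical.choose (⟨y.1, rfl⟩ : f y.1 ∈ f.range)), by
            rw [MonoidHom.mem_ker, map_div, Classical.choose_spec (⟨y.1, rfl⟩ : f y.1 ∈ f.range), div_self']⟩)
        invFun := fun a => ⟨(a.2 : Lˣ) * Classical.choose a.1.1.2, by
          rw [map_mul, MonoidHom.mem_ker.mp a.2.2, one_mul, Classical.choose_spec a.1.1.2]; exact a.1.2⟩
        left_inv := fun y => Subtype.ext (div_mul_cancel _ _)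
        right_inv := fun a => by
          obtain ⟨⟨⟨k, hk⟩, hk'⟩, ⟨n, hn⟩⟩ := a
          have e1 : f (n * Classical.choose hk) = k := by
            rw [map_mul, MonoidHom.mem_ker.mp hn, one_mul, Classical.choose_spec hk]
          simp only [Prod.mk.injEq, Subtype.mk.injEq, e1, true_and]
          simp }
    rw [Nat.card_congr e2, Nat.card_prod, hker, mul_comm]
  have hparity : ((∑ z : Z, A (c - Q (z : V)) : ℕ) : ZMod 2) = 1 := by
    rw [Nat.cast_sum, Finset.sum_congr rfl fun z _ => hA _, Finset.sum_add_distrib, Finset.sum_const,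
      Finset.card_univ, nsmul_one, Module.card_eq_pow_finrank (K := F), hZ, ← hq]
    have h0 : ∑ z : Z, (if c - Q (z : V) = 0 then 1 else 0 : ZMod 2) = 0 := by
      refine Finset.sum_involution (fun z _ => -z) (fun z _ => ?_) (fun z _ hz => ?_)
        (fun z _ => Finset.mem_univ _) (fun z _ => neg_neg z)
      · rw [Submodule.coe_neg, QuadraticMap.map_neg]; exact CharTwo.add_self_eq_zero _
      · intro h
        have hz0 : (z : V) = 0 := by
          have h' : (2 : F) • (z : V) = 0 := by
            rw [two_smul]; nth_rewrite 1 [← h]; simp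
          exact (smul_eq_zero.mp h').resolve_left h2
        rw [hz0, QuadraticMap.map_zero, sub_zero, if_neg (fun h0 : c = 0 => hnsq.choose_spec
          (hc ▸ h0 ▸ IsSquare.zero))] at hz
        exact hz rfl
    rw [h0, add_zero]
    exact ZMod.natCast_eq_one_iff_odd.mpr hqodd.pow
  have hsign := sign_eq_of_cycles σ N (∑ z : Z, A (c - Q (z : V))) hNeven (by omega)
    (Equiv.ext fun v => Subtype.ext (by
      rw [hσj, ← hsgN, pow_orderOf_eq_one, map_one]; rfl))
    (fun v hv j hj => by
      refine hxord j (hev_inj ?_ |> fun h => mul_right_cancel₀ (?_ : (eL.symm ⟨_, hWsub v.1⟩ : L) ≠ 0) h)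
      · intro h
        exact (hmoved v).mp hv (congrArg Subtype.val (eL.symm.map_eq_zero_iff.mp h))
      · show ((x ^ j : L) : Module.End F W) (ev (eL.symm ⟨_, hWsub v.1⟩)) = ev (1 * _)
        rw [one_mul, show ev (eL.symm ⟨_, hWsub v.1⟩) = ⟨_, hWsub v.1⟩ from eL.apply_symm_apply _]
        refine Subtype.ext ((hSpow j _).trans ?_)
        have hv' : toEnd (sg ^ j) (v : V) = v := by rw [← hσj, hj]
        have hEj : toEnd (sg ^ j) (E (v : V)) = E (v : V) := by
          have h := LinearMap.congr_fun (hcommE (sg ^ j) (csg.pow_left j)).eq (v : V)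
          simp only [Module.End.mul_apply, hv'] at h
          exact h
        show toEnd (sg ^ j) ((v : V) - E v) = _
        rw [map_sub, hv', hEj])
    hcount
  have hodd' : Odd (∑ z : Z, A (c - Q (z : V))) := ZMod.natCast_eq_one_iff_odd.mp hparity
  rw [hodd'.neg_one_pow] at hsign
  have hns : normSign Q c sg = -1 := by
    rw [← hsign, hσdef]
    simp only [normSign, MonoidHom.coe_comp, Function.comp_apply]
    convert rfl
  rw [hns] at hspin
  exact absurd hspin (by decide)

end Cfsg.Agent.H71.OddOrthogonalSpectrum
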